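import Mathlib
import Cfsg.Agent.H50.BenderLemma
import Cfsg.Agent.H74.PGroupAction
import Cfsg.Agent.H50.Closure

/-!
Overgroups of a large subnormal subgroup of `F*` of a maximal subgroup of a simple group.
-/

set_option linter.style.haveILetI false

open Subgroup

namespace Cfsg.Agent.H50

variable {G : Type*} [Group G] [Finite G]

/-- In a simple group a maximal subgroup contains the normalizer of each of its nontrivial normal
subgroups. -/
theorem normalizer_le_of_maximal [IsSimpleGroup G] {A : Subgroup G} (hA : IsCoatom A)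
    {Y : Subgroup A} (hY : Y.Normal) (hne : Y ≠ ⊥) :
    normalizer ((Y.map A.subtype : Subgroup G) : Set G) ≤ A := by
  haveI := hY
  have hle : A ≤ normalizer ((Y.map A.subtype : Subgroup G) : Set G) := by
    rw [← normal_subgroupOf_iff_le_normalizer (map_subtype_le Y)]
    rwa [subgroupOf, comap_map_eq_self_of_injective A.subtype_injective]
  rcases eq_or_lt_of_le hle with h | h
  · exact h.ge
  · exfalso
    have htop := hA.2 _ h
    rcases (normalizer_eq_top_iff.1 htop).eq_bot_or_eq_top with h1 | h1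
    · exact hne (by rwa [map_eq_bot_iff_of_injective _ A.subtype_injective] at h1)
    · exact hA.1 (top_le_iff.1 (h1 ▸ map_subtype_le Y))

/-- The conclusion on the cores of an overgroup of a large subnormal subgroup. -/
theorem bender_overgroup [IsSimpleGroup G] {A : Subgroup G} (hA : IsCoatom A) {S : Subgroup A}
    (hS : LargeSubnormal S) {B : Subgroup G} (hSB : S.map A.subtype ≤ B) :
    (∀ q : ℕ, q.Prime → ¬ q ∣ Nat.card (Cfsg.fittingSubgroup ↥A) →
        (Cfsg.pCore q ↥B).map B.subtype ⊓ A = ⊥) ∧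
      ∀ p : ℕ, p.Prime → p ∣ Nat.card (Cfsg.fittingSubgroup ↥A) →
        ∀ x ∈ (Cfsg.pCore p ↥B).map B.subtype, ∀ f : ↥A,
          f ∈ Cfsg.generalizedFittingSubgroup ↥A → (orderOf f).Coprime p → Commute x (f : G) := by
  -- the intersection with `A` of a core of `B`
  have hcore : ∀ r : ℕ, r.Prime →
      IsPGroup r ((Cfsg.pCore r ↥B).map B.subtype) ∧
      B ≤ normalizer (((Cfsg.pCore r ↥B).map B.subtype : Subgroup G) : Set G) := by
    intro r hr
    haveI : Fact r.Prime := ⟨hr⟩
    refine ⟨(H51.pCore_isPGroup r ↥B).map _, ?_⟩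
    rw [← normal_subgroupOf_iff_le_normalizer (map_subtype_le _), subgroupOf,
      comap_map_eq_self_of_injective B.subtype_injective]
    exact H51.pCore_normal r ↥B
  have hX : ∀ r : ℕ, r.Prime →
      IsPGroup r (((Cfsg.pCore r ↥B).map B.subtype).subgroupOf A) ∧
      S ≤ normalizer ((((Cfsg.pCore r ↥B).map B.subtype).subgroupOf A : Subgroup ↥A) : Set ↥A) := by
    intro r hr
    refine ⟨(hcore r hr).1.comap_subtype, fun s hs => ?_⟩
    have hsB := (hcore r hr).2 (hSB ⟨s, hs, rfl⟩)
    refine mem_normalizer_iff.2 fun x => ?_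
    simp only [mem_subgroupOf, coe_mul, coe_inv, SetLike.mem_coe]
    exact mem_normalizer_iff.1 hsB x
  refine ⟨fun q hq hqF => ?_, fun p hp hpF x hx f hf hfo => ?_⟩
  · haveI : Fact q.Prime := ⟨hq⟩
    obtain ⟨hXp, hSX⟩ := hX q hq
    have hE := hS.layer_le_centralizer hXp hSX
    have hcop : ∀ n ∈ Cfsg.fittingSubgroup ↥A, (orderOf n).Coprime q := fun n hn =>
      (hq.coprime_iff_not_dvd.2 fun hd => hqF (hd.trans (Subgroup.orderOf_dvd_natCard _ hn))).symm
    have hle : ((Cfsg.pCore q ↥B).map B.subtype).subgroupOf A ≤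
        centralizer (Cfsg.generalizedFittingSubgroup ↥A : Set ↥A) := by
      refine le_centralizer_iff.1 (sup_le hE fun n hn => mem_centralizer_iff.2 fun y hy => ?_)
      exact (hS.commute_coprime hXp hSX (mem_sup_right hn) (hcop n hn) hy).eq
    have hbot : ((Cfsg.pCore q ↥B).map B.subtype).subgroupOf A = ⊥ := by
      rw [eq_bot_iff]
      intro y hy
      have hyF := (hle.trans (H51.centralizer_generalizedFitting_le_fitting ↥A)) hy
      exact mem_bot.2 (orderOf_eq_one_iff.1 (by
        obtain ⟨k, hk⟩ := hXp ⟨y, hy⟩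
        have hk' : y ^ q ^ k = 1 := congrArg Subtype.val hk
        exact Nat.eq_one_of_dvd_coprimes ((hcop y hyF).pow_right k) dvd_rfl
          (orderOf_dvd_of_pow_eq_one hk')))
    rw [eq_bot_iff]
    rintro y ⟨hy1, hy2⟩
    have : (⟨y, hy2⟩ : ↥A) ∈ ((Cfsg.pCore q ↥B).map B.subtype).subgroupOf A := hy1
    rw [hbot] at this
    exact mem_bot.2 (congrArg Subtype.val (mem_bot.1 this))
  · haveI : Fact p.Prime := ⟨hp⟩
    obtain ⟨hXp, hSX⟩ := hX p hp
    set Q := (Cfsg.pCore p ↥B).map B.subtype with hQ
    by_cases hf1 : f = 1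
    · subst hf1
      simp
    -- it suffices that `x` lies in `A`
    suffices hxA : x ∈ A by
      exact (hS.commute_coprime hXp hSX hf hfo
        (show (⟨x, hxA⟩ : ↥A) ∈ Q.subgroupOf A from hx)).map A.subtype
    -- the core and the centre of the core of `A`
    set T := Cfsg.pCore p ↥A with hT
    haveI hTn : T.Normal := H51.pCore_normal p ↥A
    have hTne : T ≠ ⊥ := by
      intro h
      obtain ⟨n, hn⟩ := exists_prime_orderOf_dvd_card' (G := Cfsg.fittingSubgroup ↥A) p hpF
      have h1 : (n : ↥A) ∈ T :=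
        mem_pCore_of_mem_fitting n.2 (k := 1) (by rw [Subgroup.orderOf_coe, hn, pow_one])
      rw [h, mem_bot] at h1
      rw [← Subgroup.orderOf_coe, h1, orderOf_one] at hn
      exact hp.one_lt.ne hn
    set Z := T ⊓ centralizer (T : Set ↥A) with hZ
    haveI : Z.Normal := by rw [hZ]; exact Subgroup.normal_inf_normal _ _
    have hZne : Z ≠ ⊥ := by
      haveI : Nontrivial T := nontrivial_iff_ne_bot _ |>.2 hTne
      haveI := (H51.pCore_isPGroup p ↥A).center_nontrivial
      obtain ⟨z, hz, hz1⟩ := (nontrivial_iff_exists_ne_one _).1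
        (inferInstance : Nontrivial (center T))
      intro h
      apply hz1
      have hzm : (z : ↥A) ∈ Z := ⟨z.2, mem_centralizer_iff.2 fun t ht =>
        congrArg Subtype.val (mem_center_iff.1 hz ⟨t, ht⟩)⟩
      rw [h, mem_bot] at hzm
      exact Subtype.ext hzm
    have hNZ := normalizer_le_of_maximal hA (inferInstance : Z.Normal) hZne
    -- `p'`-elements of `S` in `F*` centralizing the core centralize `Q`
    have haxb : ∀ c ∈ S, c ∈ Cfsg.generalizedFittingSubgroup ↥A → (orderOf c).Coprime p →
        (∀ t ∈ T, Commute c t) → ∀ r ∈ Q, Commute (c : G) r := by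
      intro c hcS hcF hco hcT
      refine H74.thompson_AxB (B := (S ⊓ T).map A.subtype) (hcore p hp).1
        (((H51.pCore_isPGroup p ↥A).to_le inf_le_right).map _)
        (fun b hb => ?_) ((hcore p hp).2 (hSB ⟨c, hcS, rfl⟩)) ?_ ?_ ?_
      · obtain ⟨s, hs, rfl⟩ := hb
        exact (hcore p hp).2 (hSB ⟨s, hs.1, rfl⟩)
      · rw [Subgroup.orderOf_coe]
        exact hp.coprime_iff_not_dvd.1 hco.symm
      · rintro _ ⟨s, hs, rfl⟩
        exact (hcT s hs.2).map A.subtype
      · intro r hr hrb
        have hrA : r ∈ A := by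
          refine hNZ (centralizer_le_normalizer _ (mem_centralizer_iff.2 ?_))
          rintro _ ⟨z, hz, rfl⟩
          exact (hrb _ ⟨z, ⟨hS.center_pCore_le hz, hz.1⟩, rfl⟩).eq
        exact ((hS.commute_coprime hXp hSX hcF hco
          (show (⟨r, hrA⟩ : ↥A) ∈ Q.subgroupOf A from hr)).map A.subtype).symm
    -- a nontrivial normal subgroup of `A` generated by such elements
    obtain ⟨Y, hYn, hYne, hYS⟩ : ∃ Y : Subgroup ↥A, Y.Normal ∧ Y ≠ ⊥ ∧
        ∀ y ∈ Y, ∀ r ∈ Q, Commute (y : G) r := by
      have hgen : ∀ W : Subgroup ↥A, W.Normal → (∀ c ∈ W, (orderOf c).Coprime p →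
          ∀ r ∈ Q, Commute (c : G) r) →
          ∀ w ∈ W, w ≠ 1 → (orderOf w).Coprime p →
          ∃ Y : Subgroup ↥A, Y.Normal ∧ Y ≠ ⊥ ∧ ∀ y ∈ Y, ∀ r ∈ Q, Commute (y : G) r := by
        intro W hW hWc w hw hw1 hwo
        refine ⟨closure {c | c ∈ W ∧ (orderOf c).Coprime p}, ⟨fun y hy a => ?_⟩, ?_, ?_⟩
        · induction hy using closure_induction with
          | mem y hy => exact subset_closure ⟨hW.conj_mem y hy.1 a, by rw [orderOf_conj]; exact hy.2⟩
          | one => simp
          | mul y z _ _ h1 h2 => rw [← conj_mul]; exact mul_mem h1 h2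
          | inv y _ h1 => rw [← conj_inv]; exact inv_mem h1
        · intro h
          have : w ∈ closure {c | c ∈ W ∧ (orderOf c).Coprime p} := subset_closure ⟨hw, hwo⟩
          rw [h, mem_bot] at this
          exact hw1 this
        · intro y hy r hr
          induction hy using closure_induction with
          | mem y hy => exact hWc y hy.1 hy.2 r hr
          | one => simp
          | mul y z _ _ h1 h2 => rw [coe_mul]; exact h1.mul_left h2
          | inv y _ h1 => rw [coe_inv]; exact h1.inv_left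
      have hlayer : ∀ c ∈ Cfsg.layer ↥A, (orderOf c).Coprime p → ∀ r ∈ Q, Commute (c : G) r := by
        intro c hc hco
        refine haxb c (hS.layer_le hc) (mem_sup_left hc) hco fun t ht => ?_
        exact (mem_centralizer_iff.1
          (commutator_eq_bot_iff_le_centralizer.1 (H51.layer_commute_fittingSubgroup ↥A) hc) t
          (H51.pCore_le_fittingSubgroup p ↥A ht)).symm
      have hmem := fstar_coprime_mem (q := p) hf hfo
      by_cases hM : Cfsg.fittingSubgroup ↥A ⊓ Cfsg.pPrimeCore p ↥A = ⊥
      · rw [hM, sup_bot_eq] at hmem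
        exact hgen _ (H51.layer_normal ↥A) hlayer f hmem hf1 hfo
      · -- the centre of the core for a prime dividing the coprime part
        obtain ⟨r, hr, hrM⟩ := Nat.exists_prime_and_dvd
          (fun h => hM (Subgroup.card_eq_one.1 h))
        haveI : Fact r.Prime := ⟨hr⟩
        obtain ⟨n, hn⟩ := exists_prime_orderOf_dvd_card'
          (G := ↥(Cfsg.fittingSubgroup ↥A ⊓ Cfsg.pPrimeCore p ↥A)) r hrM
        have hn1 : (n : ↥A) ∈ Cfsg.pCore r ↥A :=
          mem_pCore_of_mem_fitting n.2.1 (k := 1) (by rw [Subgroup.orderOf_coe, hn, pow_one])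
        have hrp : r ≠ p := fun h => by
          have h1 := Nat.Coprime.coprime_dvd_left (Subgroup.orderOf_dvd_natCard _ n.2.2)
            (H51.pPrimeCore_coprime p ↥A)
          rw [Subgroup.orderOf_coe, hn, h, Nat.coprime_self] at h1
          exact hp.one_lt.ne' h1
        haveI := H51.pCore_normal r ↥A
        haveI : Nontrivial (Cfsg.pCore r ↥A) :=
          ⟨⟨⟨n, hn1⟩, 1, fun h => by
            rw [← Subgroup.orderOf_coe, show (n : ↥A) = 1 from congrArg Subtype.val h,
              orderOf_one] at hn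
            exact hr.one_lt.ne hn⟩⟩
        haveI := (H51.pCore_isPGroup r ↥A).center_nontrivial
        obtain ⟨z, hz, hz1⟩ := (nontrivial_iff_exists_ne_one _).1
          (inferInstance : Nontrivial (center (Cfsg.pCore r ↥A)))
        have hW : (Cfsg.pCore r ↥A ⊓ centralizer (Cfsg.pCore r ↥A : Set ↥A)).Normal :=
          Subgroup.normal_inf_normal _ _
        have hord : ∀ c ∈ Cfsg.pCore r ↥A, (orderOf c).Coprime p := fun c hc => by
          obtain ⟨k, hk⟩ := IsPGroup.iff_orderOf.1 (H51.pCore_isPGroup r ↥A) ⟨c, hc⟩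
          rw [← Subgroup.orderOf_coe] at hk
          rw [hk]
          exact Nat.Coprime.pow_left k ((Nat.coprime_primes hr hp).2 hrp)
        refine hgen _ hW (fun c hc hco => ?_) z ⟨z.2, mem_centralizer_iff.2 fun t ht =>
          congrArg Subtype.val (mem_center_iff.1 hz ⟨t, ht⟩)⟩
          (fun h => hz1 (Subtype.ext h)) (hord _ z.2)
        refine haxb c (hS.center_pCore_le hc) (mem_sup_right (H51.pCore_le_fittingSubgroup r ↥A hc.1))
          hco fun t ht => ?_
        exact (commute_pCore_pPrimeCore ht (mem_pPrimeCore_of_mem_fitting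
          (H51.pCore_le_fittingSubgroup r ↥A hc.1) hco)).symm
    refine normalizer_le_of_maximal hA hYn hYne (centralizer_le_normalizer _ ?_)
    refine mem_centralizer_iff.2 ?_
    rintro _ ⟨y, hy, rfl⟩
    exact (hYS y hy x hx).eq

end Cfsg.Agent.H50
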