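import Mathlib
import Cfsg.Prelude.Def_CaseTheorems
import Cfsg.Agent.H50.Closure

/-! Subgroups containing the normalizers of the large subgroups of one of their Sylow subgroups. -/

open Pointwise

namespace Cfsg.Agent.H50

/-- If `H` contains the normalizers of all subgroups with property `big` of its Sylow `p`-subgroup
`P` (where `big` is inherited upwards and invariant under conjugation), then `H` meets no other
conjugate in a subgroup with property `big`. -/
theorem mem_of_big_inf {G : Type*} [Group G] [Finite G] {p : ℕ} [Fact p.Prime] {H : Subgroup G}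
    (P : Sylow p ↥H) (big : Subgroup G → Prop)
    (hmono : ∀ X Y : Subgroup G, X ≤ Y → big X → big Y)
    (hconj : ∀ (X : Subgroup G) (g : G), big X → big (X.map (MulAut.conj g).toMonoidHom))
    (hN : ∀ X : Subgroup G, X ≤ (P : Subgroup ↥H).map H.subtype → big X →
      Subgroup.normalizer (X : Set G) ≤ H)
    {g : G} {X : Subgroup G} (hXp : IsPGroup p X)
    (hXH : X ≤ H ⊓ H.map (MulAut.conj g).toMonoidHom) (hX : big X) : g ∈ H := by
  classical
  -- normalizers of all large `p`-subgroups of `H` lie in `H`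
  have hN' : ∀ Y : Subgroup G, IsPGroup p Y → Y ≤ H → big Y →
      Subgroup.normalizer (Y : Set G) ≤ H := by
    intro Y hYp hYH hY
    obtain ⟨Q, hQ⟩ :=
      (hYp.comap_subtype : IsPGroup p (Y.subgroupOf H)).exists_le_sylow
    obtain ⟨h, hh⟩ := MulAction.exists_smul_eq H Q P
    have h1 := hN (Y.map (MulAut.conj (h : G)).toMonoidHom) (by
      rintro _ ⟨y, hy, rfl⟩
      refine ⟨h * ⟨y, hYH hy⟩ * h⁻¹, ?_, by simp⟩
      rw [← hh, Sylow.coe_subgroup_smul]
      exact ⟨⟨y, hYH hy⟩, hQ hy, by simp⟩) (hconj _ _ hY)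
    intro n hn
    have h2 : (h : G) * n * (h : G)⁻¹ ∈
        Subgroup.normalizer ((Y.map (MulAut.conj (h : G)).toMonoidHom : Subgroup G) : Set G) := by
      rw [← map_conj_eq_iff, map_conj_map, show (h : G) * n * (h : G)⁻¹ * h = h * n by group,
        ← map_conj_map, map_conj_eq_iff.2 hn]
    have h3 := mul_mem (mul_mem (inv_mem h.2) (h1 h2)) h.2
    simpa [mul_assoc] using h3
  have hcm : ∀ (K : Subgroup G) (a : G),
      Nat.card (K.map (MulAut.conj a).toMonoidHom) = Nat.card K := fun K a =>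
    Subgroup.card_map_of_injective (MulAut.conj a).injective
  set Hg := H.map (MulAut.conj g).toMonoidHom with hHg
  obtain ⟨R₀, hR₀⟩ := (hXp.comap_subtype :
    IsPGroup p (X.subgroupOf (H ⊓ Hg))).exists_le_sylow
  set R : Subgroup G := (R₀ : Subgroup ↥(H ⊓ Hg)).map (H ⊓ Hg).subtype with hRdef
  have hRp : IsPGroup p R := R₀.2.map _
  have hRle : R ≤ H ⊓ Hg := Subgroup.map_subtype_le _
  have hRbig : big R := hmono X R (fun x hx => ⟨⟨x, hXH hx⟩, hR₀ hx, rfl⟩) hX
  have hNR := hN' R hRp (hRle.trans inf_le_left) hRbig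
  obtain ⟨T, hT⟩ := (hRp.comap_subtype : IsPGroup p (R.subgroupOf Hg)).exists_le_sylow
  -- `R` is a Sylow subgroup of the conjugate of `H`
  have hRT : R.subgroupOf Hg = (T : Subgroup ↥Hg) := by
    by_contra hne
    have hlt : (R.subgroupOf Hg).subgroupOf (T : Subgroup ↥Hg) < ⊤ := by
      rw [lt_top_iff_ne_top, Ne, Subgroup.subgroupOf_eq_top]
      exact fun h => hne (le_antisymm hT h)
    have : Group.IsNilpotent (T : Subgroup ↥Hg) := T.2.isNilpotent
    obtain ⟨⟨x, hxT⟩, hxN, hxR⟩ :=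
      SetLike.exists_of_lt (Group.normalizerCondition_of_isNilpotent _ hlt)
    have hxn : (x : G) ∈ Subgroup.normalizer (R : Set G) := by
      rw [← map_conj_eq_iff]
      refine Subgroup.eq_of_le_of_card_ge ?_ (by rw [hcm])
      rintro _ ⟨y, hy, rfl⟩
      have hyg : y ∈ Hg := (hRle hy).2
      have := (Subgroup.mem_normalizer_iff.1 hxN ⟨⟨y, hyg⟩, hT hy⟩).1 hy
      simpa [Subgroup.mem_subgroupOf] using this
    have hxD : (x : G) ∈ H ⊓ Hg := ⟨hNR hxn, x.2⟩
    let E : Subgroup ↥(H ⊓ Hg) :=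
      ((T : Subgroup ↥Hg).map Hg.subtype).subgroupOf (H ⊓ Hg)
    have hE : IsPGroup p E := (T.2.map _).comap_subtype
    have hle : (R₀ : Subgroup ↥(H ⊓ Hg)) ≤ E := fun y hy =>
      ⟨⟨(y : G), y.2.2⟩, hT ⟨y, hy, rfl⟩, rfl⟩
    have hxE : (⟨(x : G), hxD⟩ : ↥(H ⊓ Hg)) ∈ E := ⟨x, hxT, rfl⟩
    rw [R₀.3 hE hle] at hxE
    exact hxR ⟨_, hxE, rfl⟩
  -- hence its conjugate is also a Sylow subgroup of `H`
  obtain ⟨Q, hQ⟩ := (hRp.comap_subtype : IsPGroup p (R.subgroupOf H)).exists_le_sylow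
  have e : ↥Hg ≃* ↥H := (H.equivMapOfInjective _ (MulAut.conj g).injective).symm
  have hcard : Nat.card (Q : Subgroup ↥H) = Nat.card (T : Subgroup ↥Hg) := by
    rw [Sylow.card_eq_multiplicity, Sylow.card_eq_multiplicity, Nat.card_congr e.toEquiv]
  have hsame : ∀ {K : Subgroup G}, R ≤ K → Nat.card (R.subgroupOf K) = Nat.card R := fun h =>
    Nat.card_congr (Subgroup.subgroupOfEquivOfLe h).toEquiv
  have hRQ : R.subgroupOf H = (Q : Subgroup ↥H) := by
    refine Subgroup.eq_of_le_of_card_ge hQ ?_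
    rw [hsame (hRle.trans inf_le_left), hcard, ← hRT, hsame (hRle.trans inf_le_right)]
  set R' : Subgroup G := R.map (MulAut.conj g⁻¹).toMonoidHom with hR'
  have hR'H : R' ≤ H := by
    intro x hx
    rw [hR', mem_map_conj] at hx
    have h2 := (Subgroup.mem_inf.1 (hRle hx)).2
    rw [hHg, mem_map_conj] at h2
    simpa [mul_assoc] using h2
  obtain ⟨Q', hQ'⟩ :=
    ((hRp.map _).comap_subtype : IsPGroup p (R'.subgroupOf H)).exists_le_sylow
  have hR'Q : R'.subgroupOf H = (Q' : Subgroup ↥H) := by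
    refine Subgroup.eq_of_le_of_card_ge hQ' ?_
    rw [Nat.card_congr (Subgroup.subgroupOfEquivOfLe hR'H).toEquiv, hR', hcm,
      ← hsame (hRle.trans inf_le_left), hRQ, Sylow.card_eq_multiplicity,
      Sylow.card_eq_multiplicity]
  obtain ⟨h, hh⟩ := MulAction.exists_smul_eq H Q' Q
  have hle : R'.map (MulAut.conj (h : G)).toMonoidHom = R := by
    refine Subgroup.eq_of_le_of_card_ge ?_ (by
      rw [hcm, hR', hcm])
    rintro _ ⟨y, hy, rfl⟩
    have h2 : MulAut.conj h ⟨y, hR'H hy⟩ ∈ (Q : Subgroup ↥H) := by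
      rw [← hh, Sylow.coe_subgroup_smul]
      exact ⟨_, hR'Q ▸ hy, rfl⟩
    rw [← hRQ] at h2
    exact h2
  rw [hR', map_conj_map, map_conj_eq_iff] at hle
  have h4 := mul_mem (inv_mem h.2) (hNR hle)
  rw [inv_mul_cancel_left] at h4
  simpa using inv_mem h4

end Cfsg.Agent.H50
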