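import Cfsg.Agent.H20.Hyperplane
import Cfsg.Agent.H53.Stabilizer
import Cfsg.Agent.H19.Fitting
import Cfsg.Agent.H51.Basic
import Cfsg.Agent.S0206
import Cfsg.Prelude.Def_Transfer

/-! Elementary abelian 2-groups acting faithfully on solvable groups of odd order: an abelian
invariant subgroup with faithful action, simultaneous eigen-elements, Thompson's dihedral lemma. -/

set_option autoImplicit false
open scoped commutatorElement

namespace Cfsg.Agent.H50

variable {G : Type*} [Group G]

/-- `x` is fixed or inverted by each element of `A`. -/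
def IsEigen (A : Subgroup G) (x : G) : Prop := ∀ a ∈ A, a * x * a⁻¹ = x ∨ a * x * a⁻¹ = x⁻¹

theorem exists_sqrt_of_odd {K : Subgroup G} (hK : Odd (Nat.card K)) {i : G}
    (hi : i ∈ K) : ∃ j : G, j ∈ Subgroup.zpowers i ∧ j * j = i := by
  obtain ⟨m, hm⟩ := hK
  refine ⟨i ^ (m + 1), ⟨(m + 1 : ℕ), zpow_natCast _ _⟩, ?_⟩
  have h1 : i ^ Nat.card K = 1 := orderOf_dvd_iff_pow_eq_one.mp (Subgroup.orderOf_dvd_natCard K hi)
  rw [← pow_add, show m + 1 + (m + 1) = Nat.card K + 1 by omega, pow_succ, h1, one_mul]

/-- A subgroup containing all eigen-elements of an invariant odd order group contains it. -/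
theorem le_of_eigen [Finite G] {A K H : Subgroup G} [IsMulCommutative A]
    (hA2 : ∀ a ∈ A, a * a = 1) (hAK : A ≤ Subgroup.normalizer (K : Set G))
    (hcop : (Nat.card A).Coprime (Nat.card K)) (hodd : Odd (Nat.card K))
    (hH : ∀ x ∈ K, IsEigen A x → x ∈ H) : K ≤ H := by
  refine H20.le_of_cocyclic_centralizers_le hAK hcop ?_
  rintro B hBA ⟨a, haA, hsup⟩ k ⟨hkK, hkB⟩
  have hBk : ∀ b ∈ B, b * k = k * b := fun b hb => Subgroup.mem_centralizer_iff.mp hkB b hb
  have hab : ∀ b ∈ B, b * a = a * b := fun b hb =>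
    congrArg Subtype.val (mul_comm' (⟨b, hBA hb⟩ : A) ⟨a, haA⟩)
  have hcen : ∀ {x : G}, (∀ b ∈ B, b * x = x * b) → (a * x * a⁻¹ = x ∨ a * x * a⁻¹ = x⁻¹) →
      IsEigen A x := by
    intro x hxB hxa c hc
    rw [← hsup] at hc
    have hz : Subgroup.zpowers a ≤ Subgroup.normalizer (B : Set G) := by
      rw [Subgroup.zpowers_le, Subgroup.mem_normalizer_iff]
      intro h
      constructor
      · intro hh
        rw [← hab h hh, mul_inv_cancel_right]
        exact hh
      · intro hh
        have e : a * h * a⁻¹ = h := by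
          have := hab _ hh
          rw [mul_assoc, mul_assoc, inv_mul_cancel, mul_one] at this
          exact (mul_left_cancel this).symm
        rwa [e] at hh
    have hc' : c ∈ ((B ⊔ Subgroup.zpowers a : Subgroup G) : Set G) := hc
    rw [Subgroup.coe_mul_of_right_le_normalizer_left B _ hz] at hc'
    obtain ⟨b, hb, d, hd, rfl⟩ := hc'
    obtain ⟨n, rfl⟩ := Subgroup.mem_zpowers_iff.mp hd
    have hbx : b * x * b⁻¹ = x := by rw [hxB b hb, mul_inv_cancel_right]
    have hbx' : b * x⁻¹ * b⁻¹ = x⁻¹ := by
      rw [show b * x⁻¹ * b⁻¹ = (b * x * b⁻¹)⁻¹ by group, hbx]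
    have ha2 : a ^ (2 : ℤ) = 1 := by rw [zpow_two]; exact hA2 a haA
    rcases Int.even_or_odd' n with ⟨t, rfl | rfl⟩
    · left
      simp only [zpow_mul, ha2, one_zpow, mul_one]
      exact hbx
    · have e : a ^ (2 * t + 1) = a := by rw [zpow_add, zpow_mul, ha2, one_zpow, one_mul, zpow_one]
      simp only [e]
      rcases hxa with h | h
      · left
        calc b * a * x * (b * a)⁻¹ = b * (a * x * a⁻¹) * b⁻¹ := by group
          _ = x := by rw [h, hbx]
      · right
        calc b * a * x * (b * a)⁻¹ = b * (a * x * a⁻¹) * b⁻¹ := by group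
          _ = x⁻¹ := by rw [h, hbx']
  have ha2' : a⁻¹ = a := inv_eq_of_mul_eq_one_right (hA2 a haA)
  set k' : G := a * k * a⁻¹ with hk'
  have hk'K : k' ∈ K := (Subgroup.mem_normalizer_iff.mp (hAK haA) k).mp hkK
  have hBk' : ∀ b ∈ B, b * k' = k' * b := by
    intro b hb
    have e : a⁻¹ * b = b * a⁻¹ := by rw [ha2']; exact (hab b hb).symm
    calc b * (a * k * a⁻¹) = (b * a) * k * a⁻¹ := by group
      _ = a * (b * k) * a⁻¹ := by rw [hab b hb]; group
      _ = a * k * (b * a⁻¹) := by rw [hBk b hb]; group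
      _ = a * k * (a⁻¹ * b) := by rw [e]
      _ = a * k * a⁻¹ * b := by group
  have haa : a * k' * a⁻¹ = k := by
    calc a * (a * k * a⁻¹) * a⁻¹ = (a * a) * k * (a * a)⁻¹ := by group
      _ = k := by rw [hA2 a haA]; group
  set i : G := k⁻¹ * k' with hi
  have hiK : i ∈ K := mul_mem (inv_mem hkK) hk'K
  have hBi : ∀ b ∈ B, b * i = i * b := by
    intro b hb
    have h1 : Commute b k := hBk b hb
    have h2 : Commute b k' := hBk' b hb
    exact (h1.inv_right.mul_right h2)
  have hai : a * i * a⁻¹ = i⁻¹ := by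
    calc a * (k⁻¹ * k') * a⁻¹ = (a * k * a⁻¹)⁻¹ * (a * k' * a⁻¹) := by group
      _ = k'⁻¹ * k := by rw [haa]
      _ = (k⁻¹ * k')⁻¹ := by group
  have hiH : i ∈ H := hH i hiK (hcen hBi (Or.inr hai))
  obtain ⟨j, hjz, hjj⟩ := exists_sqrt_of_odd hodd hiK
  have hjH : j ∈ H := Subgroup.zpowers_le.mpr hiH hjz
  have hjK : j ∈ K := Subgroup.zpowers_le.mpr hiK hjz
  obtain ⟨n, hn⟩ := Subgroup.mem_zpowers_iff.mp hjz
  have haj : a * j * a⁻¹ = j⁻¹ := by
    rw [← hn, ← conj_zpow, hai, inv_zpow]
  have hBj : ∀ b ∈ B, b * j = j * b := by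
    intro b hb
    have h1 : Commute b i := hBi b hb
    rw [← hn]; exact h1.zpow_right n
  have hfix : a * (k * j) * a⁻¹ = k * j := by
    calc a * (k * j) * a⁻¹ = k' * (a * j * a⁻¹) := by rw [hk']; group
      _ = k * i * j⁻¹ := by rw [haj, hi]; group
      _ = k * (j * j) * j⁻¹ := by rw [hjj]
      _ = k * j := by group
  have hBkj : ∀ b ∈ B, b * (k * j) = (k * j) * b := fun b hb =>
    (show Commute b k from hBk b hb).mul_right (hBj b hb)
  have hkj : k * j ∈ H := hH _ (mul_mem hkK hjK) (hcen hBkj (Or.inl hfix))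
  have := mul_mem hkj (inv_mem hjH)
  rwa [mul_inv_cancel_right] at this

/-- An elementary abelian 2-group acting on a nilpotent odd order group normalizes an abelian
subgroup whose centralizer in `A` centralizes the whole group. -/
theorem exists_abelian_faithful [Finite G] (A F : Subgroup G) [IsMulCommutative A]
    (hA2 : ∀ a ∈ A, a * a = 1) (hAF : A ≤ Subgroup.normalizer (F : Set G))
    (hcop : (Nat.card A).Coprime (Nat.card F)) (hodd : Odd (Nat.card F))
    (hF : Group.IsNilpotent F) :
    ∃ U : Subgroup G, U ≤ F ∧ A ≤ Subgroup.normalizer (U : Set G) ∧ IsMulCommutative U ∧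
      ∀ a ∈ A, a ∈ Subgroup.centralizer (U : Set G) → a ∈ Subgroup.centralizer (F : Set G) := by
  set S : Set (Subgroup G) := {U | U ≤ F ∧ A ≤ Subgroup.normalizer (U : Set G) ∧ IsMulCommutative U}
    with hS
  have hne : S.Nonempty := by
    refine ⟨⊥, bot_le, fun a _ => ?_, inferInstance⟩
    rw [Subgroup.mem_normalizer_iff]
    intro h
    simp [Subgroup.mem_bot]
  obtain ⟨U, hU⟩ := (Set.toFinite S).exists_maximal hne
  obtain ⟨hUF, hAU, hUc⟩ := hU.1
  refine ⟨U, hUF, hAU, hUc, ?_⟩
  set K : Subgroup G := F ⊓ Subgroup.centralizer (U : Set G) with hKdef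
  have hAK : A ≤ Subgroup.normalizer (K : Set G) :=
    H20.le_normalizer_inf hAF (H20.le_normalizer_centralizer hAU)
  have hUC : U ≤ Subgroup.centralizer (U : Set G) := fun x hx => Subgroup.mem_centralizer_iff.mpr
    fun y hy => congrArg Subtype.val (mul_comm' (⟨y, hy⟩ : U) ⟨x, hx⟩)
  have hKU : K ≤ U := by
    refine le_of_eigen hA2 hAK (H20.coprime_card_mono_right hcop inf_le_left)
      (Odd.of_dvd_nat hodd (Subgroup.card_dvd_of_le inf_le_left)) ?_
    rintro x ⟨hxF, hxU⟩ hxe
    by_contra hx
    set V : Subgroup G := U ⊔ Subgroup.zpowers x with hV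
    have hVS : V ∈ S := by
      refine ⟨sup_le hUF (Subgroup.zpowers_le.mpr hxF), ?_, ?_⟩
      · intro a ha
        rw [Subgroup.mem_normalizer_iff_map_conj_eq, hV, Subgroup.map_sup,
          Subgroup.mem_normalizer_iff_map_conj_eq.mp (hAU ha), MonoidHom.map_zpowers]
        congr 1
        rcases hxe a ha with h | h
        · simp [MulAut.conj_apply, h]
        · simp [MulAut.conj_apply, h, Subgroup.zpowers_inv]
      · have hc : V ≤ Subgroup.centralizer (V : Set G) := by
          have hxx : x ∈ Subgroup.centralizer (V : Set G) := by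
            rw [hV, Subgroup.mem_centralizer_iff]
            intro y hy
            have : U ⊔ Subgroup.zpowers x ≤ Subgroup.centralizer ({x} : Set G) := by
              refine sup_le (fun u hu => Subgroup.mem_centralizer_iff.mpr ?_)
                (Subgroup.zpowers_le.mpr (Subgroup.mem_centralizer_singleton_iff.mpr rfl))
              rintro _ rfl
              exact (Subgroup.mem_centralizer_iff.mp hxU u hu).symm
            exact Subgroup.mem_centralizer_singleton_iff.mp (this hy) 
          refine sup_le (fun u hu => ?_) (Subgroup.zpowers_le.mpr hxx)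
          rw [Subgroup.mem_centralizer_iff]
          intro y hy
          have : U ⊔ Subgroup.zpowers x ≤ Subgroup.centralizer ({u} : Set G) := by
            refine sup_le (fun v hv => Subgroup.mem_centralizer_singleton_iff.mpr ?_)
              (Subgroup.zpowers_le.mpr (Subgroup.mem_centralizer_singleton_iff.mpr ?_))
            · exact congrArg Subtype.val (mul_comm' (⟨v, hv⟩ : U) ⟨u, hu⟩)
            · exact (Subgroup.mem_centralizer_iff.mp hxU u hu).symm
          exact Subgroup.mem_centralizer_singleton_iff.mp (this hy)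
        exact IsMulCommutative.of_comm fun y z =>
          Subtype.ext ((Subgroup.mem_centralizer_iff.mp (hc z.2) y y.2))
    have hle : U ≤ V := le_sup_left
    exact hx (hU.2 hVS hle (le_sup_right (a := U) (Subgroup.mem_zpowers x)))
  intro a ha haU
  have hz : Subgroup.zpowers a ≤ A := Subgroup.zpowers_le.mpr ha
  have h := H53.le_centralizer_of_centralizer_fixed_le F (Subgroup.zpowers a) hF (hz.trans hAF)
    (H20.coprime_card_mono_left hcop hz) ?_
  · exact h (Subgroup.mem_zpowers a)
  have hU1 : U ≤ F ⊓ Subgroup.centralizer ((Subgroup.zpowers a : Subgroup G) : Set G) := by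
    refine le_inf hUF fun u hu => ?_
    rw [Subgroup.mem_centralizer_iff]
    intro y hy
    exact ((Subgroup.mem_centralizer_iff.mp
      (Subgroup.zpowers_le.mpr haU hy)) u hu).symm
  exact ((inf_le_inf_left F (Subgroup.centralizer_le hU1)).trans hKU).trans hU1

variable [Finite G] {L A : Subgroup G}

omit [Finite G] in
theorem map_fittingSubgroup_normalized (hAL : A ≤ Subgroup.normalizer (L : Set G)) :
    A ≤ Subgroup.normalizer (((Cfsg.fittingSubgroup L).map L.subtype : Subgroup G) : Set G) := by
  intro a ha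
  have hmem : ∀ z : G, z ∈ L ↔ a * z * a⁻¹ ∈ L := Subgroup.mem_normalizer_iff.mp (hAL ha)
  let e : L ≃* L :=
    { toFun := fun x => ⟨a * x * a⁻¹, (hmem x).mp x.2⟩
      invFun := fun x => ⟨a⁻¹ * x * a, (hmem _).mpr (by
        convert x.2 using 1; group)⟩
      left_inv := fun x => Subtype.ext (by simp only; group)
      right_inv := fun x => Subtype.ext (by simp only; group)
      map_mul' := fun x y => Subtype.ext (by simp only [Subgroup.coe_mul]; group) }
  have he : (Cfsg.fittingSubgroup L).map e.toMonoidHom = Cfsg.fittingSubgroup L := by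
    refine le_antisymm ?_ ?_
    all_goals
      have key : ∀ f : L ≃* L, (Cfsg.fittingSubgroup L).map f.toMonoidHom ≤
          Cfsg.fittingSubgroup L := by
        intro f
        rw [Subgroup.map_le_iff_le_comap, Cfsg.fittingSubgroup]
        refine sSup_le fun N hN => ?_
        rw [← Subgroup.map_le_iff_le_comap]
        refine le_sSup ⟨hN.1.map _ f.surjective, ?_⟩
        haveI := hN.2
        exact Group.nilpotent_of_surjective
          (N.equivMapOfInjective f.toMonoidHom f.injective).toMonoidHom (MulEquiv.surjective _)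
    · exact key e
    · intro x hx
      exact ⟨e.symm x, key e.symm ⟨x, hx, rfl⟩, e.apply_symm_apply x⟩
  rw [Subgroup.mem_normalizer_iff_map_conj_eq]
  calc ((Cfsg.fittingSubgroup L).map L.subtype).map (MulAut.conj a : MulAut G).toMonoidHom
      = ((Cfsg.fittingSubgroup L).map e.toMonoidHom).map L.subtype := by
        rw [Subgroup.map_map, Subgroup.map_map]; rfl
    _ = _ := by rw [he]

/-- An elementary abelian 2-group acting faithfully on a solvable group of odd order normalizes
an abelian subgroup on which it acts faithfully. -/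
theorem exists_abelian_faithful_of_solvable [IsMulCommutative A] (hA2 : ∀ a ∈ A, a * a = 1)
    (hLs : Group.IsSolvable L) (hLodd : Odd (Nat.card L))
    (hcop : (Nat.card A).Coprime (Nat.card L)) (hAL : A ≤ Subgroup.normalizer (L : Set G)) :
    ∃ U : Subgroup G, U ≤ L ∧ A ≤ Subgroup.normalizer (U : Set G) ∧ IsMulCommutative U ∧
      ∀ a ∈ A, a ∈ Subgroup.centralizer (U : Set G) → a ∈ Subgroup.centralizer (L : Set G) := by
  set F : Subgroup G := (Cfsg.fittingSubgroup L).map L.subtype with hF
  have hFL : F ≤ L := Subgroup.map_subtype_le _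
  have hFn : Group.IsNilpotent F := by
    haveI := H51.fittingSubgroup_isNilpotent L
    exact Group.nilpotent_of_surjective
      ((Cfsg.fittingSubgroup L).equivMapOfInjective L.subtype L.subtype_injective).toMonoidHom
      (MulEquiv.surjective _)
  obtain ⟨U, hUF, hAU, hUc, hU⟩ := exists_abelian_faithful A F hA2
    (map_fittingSubgroup_normalized hAL) (H20.coprime_card_mono_right hcop hFL)
    (Odd.of_dvd_nat hLodd (Subgroup.card_dvd_of_le hFL)) hFn
  refine ⟨U, hUF.trans hFL, hAU, hUc, fun a ha haU => ?_⟩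
  have haF := hU a ha haU
  have hself : ∀ l ∈ L, (∀ f ∈ F, f * l = l * f) → l ∈ F := by
    intro l hl hc
    refine ⟨⟨l, hl⟩, H19.centralizer_fitting_le ?_, rfl⟩
    exact Subgroup.mem_centralizer_iff.mpr fun f hf => Subtype.ext (hc f ⟨f, hf, rfl⟩)
  haveI : (Cfsg.fittingSubgroup L).Normal := H19.fitting_normal L
  rw [Subgroup.mem_centralizer_iff]
  intro l hl
  set c := ⁅l, a⁆ with hc
  have haa : ∀ f ∈ F, a * f = f * a := fun f hf => (Subgroup.mem_centralizer_iff.mp haF f hf).symm
  have hconj : ∀ f ∈ F, l⁻¹ * f * l ∈ F := by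
    rintro _ ⟨f, hf, rfl⟩
    exact ⟨(⟨l, hl⟩ : L)⁻¹ * f * ⟨l, hl⟩,
      (Subgroup.Normal.mem_comm_iff (inferInstance : (Cfsg.fittingSubgroup L).Normal)).mp
        (by simpa [mul_assoc] using hf), rfl⟩
  have hcL : c ∈ L := by
    rw [hc, commutatorElement_def, mul_assoc l, mul_assoc l]
    exact mul_mem hl ((Subgroup.mem_normalizer_iff.mp (hAL ha) _).mp (inv_mem hl))
  have hcF : c ∈ F := by
    refine hself c hcL fun f hf => ?_
    have e1 : a * (l⁻¹ * f * l) = (l⁻¹ * f * l) * a := haa _ (hconj f hf)
    have e2 : a⁻¹ * f = f * a⁻¹ := ((show Commute a f from haa f hf).inv_left)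
    calc f * c = l * ((l⁻¹ * f * l) * a) * l⁻¹ * a⁻¹ := by
          rw [hc, commutatorElement_def]; group
      _ = l * a * l⁻¹ * (f * a⁻¹) := by rw [← e1]; group
      _ = l * a * l⁻¹ * (a⁻¹ * f) := by rw [e2]
      _ = c * f := by rw [hc, commutatorElement_def]; group
  exact (H53.commute_of_commutator_fixed hcL
    (haa c hcF).symm ((H20.coprime_card_mono_left hcop (Subgroup.zpowers_le.mpr ha)
      ).coprime_dvd_left (by rw [Nat.card_zpowers])))

/-- **Thompson's dihedral lemma.** -/
theorem dihedral_lemma (hLs : Group.IsSolvable L) (hLodd : Odd (Nat.card L))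
    (hA : Cfsg.IsElementaryAbelian 2 A) {d : ℕ} (hAd : Nat.card A = 2 ^ d)
    (hAL : A ≤ Subgroup.normalizer (L : Set G))
    (hfaith : A ⊓ Subgroup.centralizer (L : Set G) = ⊥) :
    ∃ (a x : Fin d → G), (∀ i, a i ∈ A ∧ a i ≠ 1 ∧ x i ∈ L ∧ x i ≠ 1 ∧
      a i * x i * (a i)⁻¹ = (x i)⁻¹) ∧ (⨆ i, Subgroup.zpowers (a i)) = A ∧
      (∀ i j, Commute (x i) (x j)) ∧ ∀ i j, i ≠ j → Commute (a i) (x j) := by
  haveI : IsMulCommutative A := hA.1
  have hA2 : ∀ a ∈ A, a * a = 1 := by
    intro a ha
    rw [← pow_two]; exact hA.2 a ha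
  have hcop : (Nat.card A).Coprime (Nat.card L) := by
    rw [hAd]
    exact (Nat.coprime_two_left.mpr hLodd).pow_left d
  obtain ⟨U, hUL, hAU, hUc, hU⟩ := exists_abelian_faithful_of_solvable hA2 hLs hLodd hcop hAL
  have step : ∀ k, k ≤ d → ∃ (a x : Fin k → G) (K : Subgroup G), K ≤ A ∧
      Nat.card K * 2 ^ k = 2 ^ d ∧ (∀ i, a i ∈ A ∧ a i ≠ 1 ∧ x i ∈ U ∧ x i ≠ 1 ∧
        a i * x i * (a i)⁻¹ = (x i)⁻¹) ∧ (∀ b ∈ A, b ∈ K ↔ ∀ i, Commute b (x i)) ∧
        A ≤ (⨆ i, Subgroup.zpowers (a i)) ⊔ K ∧ (∀ i, IsEigen A (x i)) ∧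
        ∀ i j, i ≠ j → Commute (a i) (x j) := by
    intro k
    induction k with
    | zero =>
      intro _
      exact ⟨finZeroElim, finZeroElim, A, le_rfl, by simp [hAd], finZeroElim,
        fun b hb => ⟨fun _ => finZeroElim, fun _ => hb⟩, le_sup_right, finZeroElim, finZeroElim⟩
    | succ k ih =>
      intro hk
      obtain ⟨a, x, K, hKA, hcard, hax, hK, hsup, heig, hcom⟩ := ih (by omega)
      have hK1 : K ≠ ⊥ := by
        rintro rfl
        rw [Subgroup.card_bot, one_mul] at hcard
        have := Nat.pow_right_injective le_rfl hcard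
        omega
      obtain ⟨b, hbK, hb1⟩ := K.ne_bot_iff_exists_ne_one.mp hK1 |>
        fun ⟨b, hb⟩ => (⟨(b : G), b.2, fun h => hb (Subtype.ext h)⟩ :
          ∃ b : G, b ∈ K ∧ b ≠ 1)
      have hex : ∃ y ∈ U, IsEigen A y ∧ ¬ Commute b y := by
        by_contra hno
        push Not at hno
        have hUb : U ≤ Subgroup.centralizer ({b} : Set G) :=
          le_of_eigen hA2 hAU (H20.coprime_card_mono_right hcop hUL)
            (Odd.of_dvd_nat hLodd (Subgroup.card_dvd_of_le hUL))
            fun y hy hye => Subgroup.mem_centralizer_singleton_iff.mpr (hno y hy hye).symm.eq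
        have : b ∈ Subgroup.centralizer (U : Set G) := Subgroup.mem_centralizer_iff.mpr
          fun u hu => Subgroup.mem_centralizer_singleton_iff.mp (hUb hu)
        exact hb1 (Subgroup.mem_bot.mp (hfaith ▸ ⟨hKA hbK, hU b (hKA hbK) this⟩))
      obtain ⟨y, hyU, hye, hby⟩ := hex
      have hy1 : y ≠ 1 := fun h => hby (h ▸ Commute.one_right b)
      have hne : y⁻¹ ≠ y := by
        intro h
        have hy2 : y ^ 2 = 1 := by
          rw [pow_two]; nth_rewrite 1 [← h]; exact inv_mul_cancel y
        exact hy1 (orderOf_eq_one_iff.mp (Nat.eq_one_of_dvd_coprimes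
          (Nat.coprime_two_left.mpr hLodd) (orderOf_dvd_of_pow_eq_one hy2)
          (Subgroup.orderOf_dvd_natCard L (hUL hyU))))
      have hcomm_iff : ∀ (c : G) (z : G), c * z * c⁻¹ = z ↔ Commute c z := fun c z =>
        mul_inv_eq_iff_eq_mul
      have hbinv : b * y * b⁻¹ = y⁻¹ := (hye b (hKA hbK)).resolve_left
        fun h => hby ((hcomm_iff b y).mp h)
      classical
      let fix : G → G := fun c => if Commute c y then c else c * b
      have hfixA : ∀ c ∈ A, fix c ∈ A := by
        intro c hc
        simp only [fix]; split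
        · exact hc
        · exact mul_mem hc (hKA hbK)
      have hbyinv : b * y⁻¹ * b⁻¹ = y := by
        rw [show b * y⁻¹ * b⁻¹ = (b * y * b⁻¹)⁻¹ by group, hbinv, inv_inv]
      have hfixy : ∀ c ∈ A, Commute (fix c) y := by
        intro c hc
        simp only [fix]; split
        · assumption
        · rename_i hcy
          have hcinv : c * y * c⁻¹ = y⁻¹ := (hye c hc).resolve_left
            fun h => hcy ((hcomm_iff c y).mp h)
          rw [← hcomm_iff]
          calc c * b * y * (c * b)⁻¹ = c * (b * y * b⁻¹) * c⁻¹ := by group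
            _ = (c * y * c⁻¹)⁻¹ := by rw [hbinv]; group
            _ = y := by rw [hcinv, inv_inv]
      have hfixx : ∀ c, ∀ j, fix c * x j * (fix c)⁻¹ = c * x j * c⁻¹ := by
        intro c j
        simp only [fix]; split
        · rfl
        · calc c * b * x j * (c * b)⁻¹ = c * (b * x j * b⁻¹) * c⁻¹ := by group
            _ = c * x j * c⁻¹ := by
              rw [(hcomm_iff b (x j)).mpr ((hK b (hKA hbK)).mp hbK j)]
      set K' : Subgroup G := K ⊓ Subgroup.centralizer ({y} : Set G) with hK'
      have hmemK' : ∀ c, c ∈ K' ↔ c ∈ K ∧ Commute c y := fun c => by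
        rw [hK', Subgroup.mem_inf, Subgroup.mem_centralizer_singleton_iff]
        exact Iff.rfl
      have hKsplit : ∀ c ∈ K, fix c ∈ K' := fun c hc => by
        refine (hmemK' _).mpr ⟨?_, hfixy c (hKA hc)⟩
        simp only [fix]; split
        · exact hc
        · exact mul_mem hc hbK
      have hidx : K'.relIndex K = 2 := by
        rw [Subgroup.relIndex, Subgroup.index_eq_two_iff]
        refine ⟨⟨b, hbK⟩, fun c => ?_⟩
        simp only [Subgroup.mem_subgroupOf, Subgroup.coe_mul]
        by_cases hc : Commute (c : G) y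
        · refine Or.inr ⟨(hmemK' _).mpr ⟨c.2, hc⟩, fun h => hby ?_⟩
          have := (hc.inv_left.mul_left ((hmemK' _).mp h).2)
          rwa [inv_mul_cancel_left] at this
        · refine Or.inl ⟨?_, fun h => hc ((hmemK' _).mp h).2⟩
          have := hKsplit c c.2
          simpa [fix, if_neg hc] using this
      have hcard' : Nat.card K' * 2 ^ (k + 1) = 2 ^ d := by
        have := Subgroup.card_mul_index (K'.subgroupOf K)
        rw [Nat.card_congr (Subgroup.subgroupOfEquivOfLe inf_le_left).toEquiv,
          show (K'.subgroupOf K).index = 2 from hidx] at this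
        rw [pow_succ, ← hcard, ← this]; ring
      let a' : Fin (k + 1) → G := Fin.snoc (fun i => fix (a i)) b
      let x' : Fin (k + 1) → G := Fin.snoc x y
      refine ⟨a', x', K', inf_le_left.trans hKA, hcard', ?_, ?_, ?_, ?_, ?_⟩
      · intro i
        refine Fin.lastCases ?_ (fun i => ?_) i
        · simp only [a', x', Fin.snoc_last]
          exact ⟨hKA hbK, hb1, hyU, hy1, hbinv⟩
        · simp only [a', x', Fin.snoc_castSucc]
          obtain ⟨h1, h2, h3, h4, h5⟩ := hax i
          refine ⟨hfixA _ h1, fun h => ?_, h3, h4, by rw [hfixx]; exact h5⟩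
          have e := hfixx (a i) i
          rw [h, h5] at e
          simp only [one_mul, inv_one, mul_one] at e
          have hx2 : x i ^ 2 = 1 := by
            rw [pow_two]; nth_rewrite 1 [e]; exact inv_mul_cancel _
          exact h4 (orderOf_eq_one_iff.mp (Nat.eq_one_of_dvd_coprimes
            (Nat.coprime_two_left.mpr hLodd) (orderOf_dvd_of_pow_eq_one hx2)
            (Subgroup.orderOf_dvd_natCard L (hUL h3))))
      · intro c hc
        rw [hmemK' c, Fin.forall_fin_succ', hK c hc]
        simp only [x', Fin.snoc_last, Fin.snoc_castSucc]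
      · refine hsup.trans (sup_le (iSup_le fun i => ?_) fun c hc => ?_)
        · have hb' : b ∈ (⨆ i, Subgroup.zpowers (a' i)) := by
            refine Subgroup.mem_iSup_of_mem (Fin.last k) ?_
            simp [a', Fin.snoc_last]
          have hf : fix (a i) ∈ (⨆ i, Subgroup.zpowers (a' i)) := by
            refine Subgroup.mem_iSup_of_mem i.castSucc ?_
            simp [a', Fin.snoc_castSucc]
          rw [Subgroup.zpowers_le]
          refine Subgroup.mem_sup_left ?_
          by_cases h : Commute (a i) y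
          · simpa [fix, if_pos h] using hf
          · have := mul_mem hf (inv_mem hb')
            simpa [fix, if_neg h] using this
        · have hb' : b ∈ (⨆ i, Subgroup.zpowers (a' i)) ⊔ K' := by
            refine Subgroup.mem_sup_left (Subgroup.mem_iSup_of_mem (Fin.last k) ?_)
            simp [a', Fin.snoc_last]
          have h1 : fix c ∈ (⨆ i, Subgroup.zpowers (a' i)) ⊔ K' :=
            Subgroup.mem_sup_right (hKsplit c hc)
          by_cases h : Commute c y
          · simpa [fix, if_pos h] using h1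
          · have := mul_mem h1 (inv_mem hb')
            simpa [fix, if_neg h] using this
      · intro i
        refine Fin.lastCases ?_ (fun i => ?_) i
        · simp only [x', Fin.snoc_last]; exact hye
        · simp only [x', Fin.snoc_castSucc]; exact heig i
      · intro i
        refine Fin.lastCases ?_ (fun i => ?_) i
        · intro j
          refine Fin.lastCases (fun h => absurd rfl h) (fun j _ => ?_) j
          simp only [a', x', Fin.snoc_last, Fin.snoc_castSucc]
          exact (hK b (hKA hbK)).mp hbK j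
        · intro j
          refine Fin.lastCases (fun _ => ?_) (fun j h => ?_) j
          · simp only [a', x', Fin.snoc_last, Fin.snoc_castSucc]
            exact hfixy _ (hax i).1
          · simp only [a', x', Fin.snoc_castSucc]
            rw [← hcomm_iff, hfixx, hcomm_iff]
            exact hcom i j (fun e => h (by rw [e]))
  obtain ⟨a, x, K, hKA, hcard, hax, -, hsup, -, hcom⟩ := step d le_rfl
  have hK : K = ⊥ := by
    rw [← Subgroup.card_eq_one]
    exact (Nat.mul_eq_right (by positivity)).mp hcard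
  refine ⟨a, x, fun i => ⟨(hax i).1, (hax i).2.1, hUL (hax i).2.2.1, (hax i).2.2.2.1,
    (hax i).2.2.2.2⟩, le_antisymm (iSup_le fun i => Subgroup.zpowers_le.mpr (hax i).1) ?_,
    fun i j => ?_, hcom⟩
  · simpa [hK] using hsup
  · exact congrArg Subtype.val (mul_comm' (⟨x i, (hax i).2.2.1⟩ : U) ⟨x j, (hax j).2.2.1⟩)

end Cfsg.Agent.H50
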