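import Mathlib
import Cfsg.Agent.H50.IsolatedInverted

/-! The order formula for an isolated involution and a commuting involution. -/

namespace Cfsg.Agent.H50

variable {G : Type*} [Group G]

/-- For `u` commuting with `z`, at most one conjugate of `z` centralizing `u` gives an involution
commuting with a given conjugate of `z`. -/
theorem isolated_split_unique [Finite G] {z u : G} (hz : Cfsg.IsIsolatedInvolution z)
    {g a a' : G} (ha : Commute u (a * z * a⁻¹)) (ha' : Commute u (a' * z * a'⁻¹))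
    (hw : Commute (g * z * g⁻¹) (u * (a * z * a⁻¹)))
    (hw' : Commute (g * z * g⁻¹) (u * (a' * z * a'⁻¹))) (hu : u * u = 1) :
    a * z * a⁻¹ = a' * z * a'⁻¹ := by
  have h1 : orderOf (a * z * a⁻¹) = 2 := by rw [orderOf_conj]; exact hz.1
  have h2 : orderOf (a' * z * a'⁻¹) = 2 := by rw [orderOf_conj]; exact hz.1
  have hodd : Odd (orderOf (a * z * a⁻¹ * (a' * z * a'⁻¹))) := by
    have := isolated_odd (isolated_conj hz a) (a' * a⁻¹)
    simpa [mul_assoc] using this
  have he : (u * (a * z * a⁻¹)) * (u * (a' * z * a'⁻¹)) = a * z * a⁻¹ * (a' * z * a'⁻¹) := by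
    calc (u * (a * z * a⁻¹)) * (u * (a' * z * a'⁻¹))
        = u * ((a * z * a⁻¹) * u) * (a' * z * a'⁻¹) := by simp only [mul_assoc]
      _ = (u * u) * (a * z * a⁻¹) * (a' * z * a'⁻¹) := by
          rw [show (a * z * a⁻¹) * u = u * (a * z * a⁻¹) from ha.eq.symm]; simp only [mul_assoc]
      _ = a * z * a⁻¹ * (a' * z * a'⁻¹) := by rw [hu, one_mul]
  have hc := hw.mul_right hw'
  rw [he] at hc
  have h3 := isolated_no_invert hz hodd (conj_prod_left h1 h2) hc
  rw [← inv_eq_self h2]
  exact eq_inv_of_mul_eq_one_left h3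

/-- For an involution `u ≠ z` commuting with `z`, every conjugate `x` of `z` commutes with a product
of `u` and a conjugate of `z` centralized by `u`. -/
theorem isolated_split_exists [Finite G] {z u : G} (hz : Cfsg.IsIsolatedInvolution z)
    (huz : Commute u z) (hu : u * u = 1) (hne : u ≠ z) (g : G) :
    ∃ a : G, Commute u (a * z * a⁻¹) ∧ Commute (g * z * g⁻¹) (u * (a * z * a⁻¹)) := by
  by_cases h1 : u = 1
  · exact ⟨g, h1 ▸ Commute.one_left _, by rw [h1, one_mul]⟩
  have hu2 := orderOf_eq_two hu h1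
  have hx2 : orderOf (g * z * g⁻¹) = 2 := by rw [orderOf_conj]; exact hz.1
  rcases Nat.even_or_odd (orderOf (g * z * g⁻¹ * u)) with hev | hod
  · obtain ⟨m, -, hw, hxw, huw, hcase⟩ := central_involution_spec hx2 hu2 hev
    rcases hcase with ⟨-, i, hi⟩ | ⟨-, i, hi⟩
    · exfalso
      have h2 := (isolated_conj hz g).2 ((g * z * g⁻¹ * u) ^ i) (by
        rw [hi]; exact (Commute.refl _).mul_right hxw)
      rw [hi, mul_eq_left] at h2
      rw [h2, orderOf_one] at hw
      omega
    · refine ⟨((g * z * g⁻¹ * u) ^ i)⁻¹ * g, ?_, ?_⟩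
      all_goals
        have hdw : Commute ((g * z * g⁻¹ * u) ^ i) ((g * z * g⁻¹ * u) ^ m) :=
          Commute.pow_pow (Commute.refl _) i m
      all_goals
        have hval : (((g * z * g⁻¹ * u) ^ i)⁻¹ * g) * z * (((g * z * g⁻¹ * u) ^ i)⁻¹ * g)⁻¹ =
            u * (g * z * g⁻¹ * u) ^ m := by
          generalize (g * z * g⁻¹ * u) ^ i = d at hi hdw
          generalize (g * z * g⁻¹ * u) ^ m = w at hw hxw huw hi hdw
          have hx : g * z * g⁻¹ = d * u * d⁻¹ * w⁻¹ := eq_mul_inv_of_mul_eq hi.symm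
          calc (d⁻¹ * g) * z * (d⁻¹ * g)⁻¹ = d⁻¹ * (g * z * g⁻¹) * d := by group
            _ = u * (d⁻¹ * w⁻¹ * d) := by rw [hx]; group
            _ = u * w := by
                rw [inv_eq_self hw, mul_assoc d⁻¹, ← hdw.eq, inv_mul_cancel_left]
      · rw [hval]
        exact (Commute.refl u).mul_right huw
      · rw [hval, ← mul_assoc u u, hu, one_mul]
        exact hxw
  · exfalso
    obtain ⟨i, hi⟩ := exists_conj_of_odd hx2 hu2 hod
    generalize (g * z * g⁻¹ * u) ^ i = d at hi
    have he : (d * g) * z * (d * g)⁻¹ = u := by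
      rw [← hi]; group
    exact hne (he.symm.trans (hz.2 (d * g) (by rw [he]; exact huz.symm)))

/-- The order formula for an isolated involution. -/
theorem isolated_card_formula [Finite G] {z : G} (hz : Cfsg.IsIsolatedInvolution z) {s : G}
    (hs : orderOf s = 2) (hsz : Commute s z) :
    Nat.card G = Nat.card (Subgroup.centralizer ({z} : Set G)) *
      Nat.card {k : G // Odd (orderOf k) ∧ z * k * z⁻¹ = k⁻¹ ∧ Commute k (s * z)} *
      Nat.card {k : G // Odd (orderOf k) ∧ z * k * z⁻¹ = k⁻¹ ∧ Commute k s} := by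
  set C := Subgroup.centralizer ({z} : Set G) with hC
  set u := s * z with hu
  have huz : Commute u z := hsz.mul_left (Commute.refl z)
  have hu2 : u * u = 1 := by
    calc u * u = s * (z * s) * z := by simp only [hu, mul_assoc]
      _ = (s * s) * (z * z) := by rw [← hsz.eq]; simp only [mul_assoc]
      _ = 1 := by rw [inv_mul_self hs, inv_mul_self hz.1, one_mul]
  have hune : u ≠ z := fun h => by
    rw [mul_eq_right.1 h, orderOf_one] at hs; omega
  have hs_eq : u * z = s := by rw [hu, mul_assoc, inv_mul_self hz.1, mul_one]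
  have hrel : ∀ a : G, Commute a u → a * s * a⁻¹ = u * (a * z * a⁻¹) := fun a ha => by
    rw [← hs_eq, ← conj_mul, mul_inv_eq_iff_eq_mul.2 ha.eq]
  let f : {k : G // Odd (orderOf k) ∧ z * k * z⁻¹ = k⁻¹ ∧ Commute k u} ×
      {k : G // Odd (orderOf k) ∧ z * k * z⁻¹ = k⁻¹ ∧ Commute k s} → G ⧸ C :=
    fun ab => QuotientGroup.mk (ab.1.1 * ab.2.1)
  have hconj : ∀ g g' : G, (QuotientGroup.mk g : G ⧸ C) = QuotientGroup.mk g' ↔
      g * z * g⁻¹ = g' * z * g'⁻¹ := fun g g' => by
    rw [QuotientGroup.eq, eq_comm (a := g * z * g⁻¹), conj_eq_iff_mem_centralizer]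
  have hbij : Function.Bijective f := by
    constructor
    · rintro ⟨⟨a, hao, hai, hau⟩, ⟨b, hbo, hbi, hbs⟩⟩ ⟨⟨a', ha'o, ha'i, ha'u⟩, ⟨b', hb'o, hb'i, hb's⟩⟩ h
      have h1 := (hconj _ _).1 h
      have cu : ∀ x : G, Commute x u → Commute u (x * z * x⁻¹) := fun x hx =>
        (hx.symm.mul_right huz).mul_right hx.symm.inv_right
      have cw : ∀ x y : G, Commute x u → Commute y s →
          Commute (x * y * z * (x * y)⁻¹) (u * (x * z * x⁻¹)) := fun x y hx hy => by
        rw [← hrel x hx, show x * y * z * (x * y)⁻¹ = x * (y * z * y⁻¹) * x⁻¹ by group]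
        exact (Commute.conj_iff x).2
          (((hy.symm.mul_right hsz).mul_right hy.symm.inv_right)).symm
      have h2 := isolated_split_unique hz (g := a * b) (cu a hau) (cu a' ha'u) (cw a b hau hbs)
        (by rw [h1]; exact cw a' b' ha'u hb's) hu2
      have e1 : a = a' := inverted_unique hz.1 hao hai ha'o ha'i h2
      subst e1
      have h3 : b * z * b⁻¹ = b' * z * b'⁻¹ := by
        calc b * z * b⁻¹ = a⁻¹ * (a * b * z * (a * b)⁻¹) * a := by group
          _ = a⁻¹ * (a * b' * z * (a * b')⁻¹) * a := by rw [h1]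
          _ = b' * z * b'⁻¹ := by group
      have e2 : b = b' := inverted_unique hz.1 hbo hbi hb'o hb'i h3
      subst e2
      rfl
    · intro q
      obtain ⟨g, rfl⟩ := QuotientGroup.mk_surjective q
      obtain ⟨a₀, ha₀u, ha₀x⟩ := isolated_split_exists hz huz hu2 hune g
      obtain ⟨a, hao, hai, hae, hac, -⟩ := isolated_exists_inverted hz a₀
      have hau : Commute a u := (hac u huz ha₀u).symm
      rw [← hae, ← hrel a hau] at ha₀x
      obtain ⟨b, hbo, hbi, hbe, hbc, -⟩ := isolated_exists_inverted hz (a⁻¹ * g)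
      have hbs : Commute b s := by
        refine (hbc s hsz ?_).symm
        rw [← Commute.conj_iff a,
          show a * ((a⁻¹ * g) * z * (a⁻¹ * g)⁻¹) * a⁻¹ = g * z * g⁻¹ by group]
        exact ha₀x.symm
      refine ⟨(⟨a, hao, hai, hau⟩, ⟨b, hbo, hbi, hbs⟩), ?_⟩
      rw [hconj]
      calc a * b * z * (a * b)⁻¹ = a * (b * z * b⁻¹) * a⁻¹ := by group
        _ = g * z * g⁻¹ := by rw [hbe]; group
  rw [← C.card_mul_index, mul_assoc, ← Nat.card_prod, Subgroup.index,
    Nat.card_eq_of_bijective f hbij]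

end Cfsg.Agent.H50
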