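import Mathlib
import Cfsg.Agent.H50.IsolatedInverted
import Cfsg.Agent.H50.ControlTransfer
import Cfsg.Agent.H50.PResidualBasics

/-! Isolated involutions: Sylow 2-subgroups of the centralizer and `O^2`. -/

set_option linter.style.haveILetI false

namespace Cfsg.Agent.H50

variable {G : Type*} [Group G]

/-- An isolated involution is central in every 2-subgroup containing it. -/
theorem isolated_central_of_isPGroup [Finite G] {z : G} (hz : Cfsg.IsIsolatedInvolution z)
    {S : Subgroup G} (hS : IsPGroup 2 S) (hzS : z ∈ S) {s : G} (hs : s ∈ S) : Commute s z := by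
  obtain ⟨n, hn⟩ := isolated_odd hz s
  have hmem : z * (s * z * s⁻¹) ∈ S := mul_mem hzS (mul_mem (mul_mem hs hzS) (inv_mem hs))
  obtain ⟨k, hk⟩ := hS ⟨_, hmem⟩
  have h1 : (z * (s * z * s⁻¹)) ^ (2 ^ k) = 1 := congrArg Subtype.val hk
  have h2 : (z * (s * z * s⁻¹)) ^ Nat.gcd (2 ^ k) (orderOf (z * (s * z * s⁻¹))) = 1 :=
    pow_gcd_eq_one.2 ⟨h1, pow_orderOf_eq_one _⟩
  rw [Nat.Coprime.gcd_eq_one (Nat.Coprime.pow_left k
    (Nat.coprime_two_left.2 ⟨n, hn⟩)), pow_one] at h2
  have h3 : s * z * s⁻¹ = z := by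
    rw [← inv_eq_of_mul_eq_one_right h2, inv_eq_self hz.1]
  exact mul_inv_eq_iff_eq_mul.1 h3

/-- The centralizer of an isolated involution has odd index. -/
theorem isolated_index_odd [Finite G] {z : G} (hz : Cfsg.IsIsolatedInvolution z) :
    Nat.Coprime 2 (Subgroup.centralizer ({z} : Set G)).index := by
  have hp : IsPGroup 2 (Subgroup.zpowers z) :=
    IsPGroup.of_card (n := 1) (by rw [Nat.card_zpowers, hz.1, pow_one])
  obtain ⟨S, hS⟩ := hp.exists_le_sylow
  have hle : (S : Subgroup G) ≤ Subgroup.centralizer ({z} : Set G) := fun s hs =>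
    Subgroup.mem_centralizer_singleton_iff.2
      (isolated_central_of_isPGroup hz S.2 (hS (Subgroup.mem_zpowers z)) hs).eq
  exact Nat.Coprime.coprime_dvd_right (Subgroup.index_dvd_of_le hle)
    ((Nat.prime_two.coprime_iff_not_dvd).2 S.not_dvd_index)

/-- `G` is generated by `O^2(G)` and the centralizer of an isolated involution. -/
theorem isolated_residual_mul [Finite G] {z : G} (hz : Cfsg.IsIsolatedInvolution z) (g : G) :
    ∃ k ∈ Cfsg.pResidual 2 G, k⁻¹ * g ∈ Subgroup.centralizer ({z} : Set G) := by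
  obtain ⟨k, hk, -, hc, -⟩ := isolated_exists_inverted hz g
  exact ⟨k, Subgroup.subset_closure (Nat.coprime_two_right.2 hk),
    conj_eq_iff_mem_centralizer.1 hc.symm⟩

/-- `O^2(G) = G` exactly when this holds for the centralizer of an isolated involution. -/
theorem isolated_two_residual [Finite G] {z : G} (hz : Cfsg.IsIsolatedInvolution z) :
    Cfsg.pResidual 2 G = ⊤ ↔ Cfsg.pResidual 2 ↥(Subgroup.centralizer ({z} : Set G)) = ⊤ := by
  haveI : (Cfsg.pResidual 2 G).Normal := pResidual_normal 2 G
  haveI : (Cfsg.pResidual 2 ↥(Subgroup.centralizer ({z} : Set G))).Normal :=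
    pResidual_normal 2 _
  constructor
  · intro hG
    by_contra hne
    let R := Cfsg.pResidual 2 ↥(Subgroup.centralizer ({z} : Set G))
    have hQ : IsPGroup 2 (↥(Subgroup.centralizer ({z} : Set G)) ⧸ R) :=
      isPGroup_quotient_of_pResidual_le le_rfl
    haveI : Nontrivial (↥(Subgroup.centralizer ({z} : Set G)) ⧸ R) :=
      QuotientGroup.nontrivial_iff.2 hne
    haveI : Group.IsNilpotent (↥(Subgroup.centralizer ({z} : Set G)) ⧸ R) := hQ.isNilpotent
    let Q := ↥(Subgroup.centralizer ({z} : Set G)) ⧸ R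
    have hA : IsPGroup 2 (Abelianization Q) := hQ.to_quotient _
    obtain ⟨ψ, hψ⟩ := exists_extension_of_controls (isolated_index_odd hz)
      (fun g hg _ a ha => by
        obtain ⟨c, -, hc, hcX⟩ := isolated_controls hz (H := ⊤)
          (Subgroup.le_normalizer (Subgroup.mem_top z)) (X := {g})
          (Subgroup.mem_top a)
          (fun x hx => by rw [hx]; exact Subgroup.mem_centralizer_singleton_iff.1 hg)
          (fun x hx => by rw [hx]; exact Subgroup.mem_centralizer_singleton_iff.1 ha)
        exact ⟨c, Subgroup.mem_centralizer_singleton_iff.2 hc.eq, hcX g rfl⟩)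
      hA (Abelianization.of.comp (QuotientGroup.mk' R))
    have hker := pResidual_le_ker ψ hA
    rw [hG] at hker
    have htriv : ∀ q : Q, Abelianization.of q = 1 := by
      intro q
      obtain ⟨c, rfl⟩ := QuotientGroup.mk_surjective q
      exact (hψ c).symm.trans (hker (Subgroup.mem_top _))
    have hcomm : commutator Q = ⊤ := by
      rw [eq_top_iff]
      intro q _
      exact (QuotientGroup.eq_one_iff q).1 (htriv q)
    haveI : Group.IsPerfect Q := ⟨hcomm⟩
    exact Group.IsPerfect.not_isSolvable Q (inferInstance : Group.IsSolvable Q)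
  · intro hC
    rw [eq_top_iff]
    intro g _
    obtain ⟨k, hk, hkg⟩ := isolated_residual_mul hz g
    have h1 : k⁻¹ * g ∈ Cfsg.pResidual 2 G := by
      apply map_pResidual_le 2 (Subgroup.centralizer ({z} : Set G)).subtype
      rw [hC]
      exact ⟨⟨_, hkg⟩, Subgroup.mem_top _, rfl⟩
    simpa using mul_mem hk h1

end Cfsg.Agent.H50
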