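import Mathlib
import Cfsg.Prelude.Def_CaseTheorems

/-! Self-centralizing four-subgroups in groups with a suitable cyclic subgroup of index two. -/

set_option linter.style.haveILetI false

namespace Cfsg.Agent.H50

/-- In a group with a cyclic subgroup `X` of index two, if no element outside `X` squaring to one has
more than two fixed points on `X`, then four-subgroups are self-centralizing. -/
theorem four_self_centralizing {Q : Type*} [Group Q] [Finite Q] {X : Subgroup Q}
    (hXc : IsCyclic X) (hX : X.index = 2)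
    (hfix : ∀ e : Q, e ∉ X → e * e = 1 →
      Nat.card (Subgroup.centralizer ({e} : Set Q) ⊓ X : Subgroup Q) ≤ 2)
    {V : Subgroup Q} (hV : Nat.card V = 4) (hVsq : ∀ v ∈ V, v * v = 1) :
    Subgroup.centralizer (V : Set Q) ≤ V := by
  classical
  haveI := hXc
  obtain ⟨e, heV, heX⟩ : ∃ e ∈ V, e ∉ X := by
    by_contra h
    push Not at h
    haveI : Fintype X := Fintype.ofFinite X
    have h1 := IsCyclic.card_pow_eq_one_le (α := X) (n := 2) (by norm_num)
    have h2 : Nat.card V ≤ (Finset.univ.filter fun a : X => a ^ 2 = 1).card := by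
      rw [← Fintype.card_coe, ← Nat.card_eq_fintype_card]
      refine Nat.card_le_card_of_injective
        (fun v : V => ⟨⟨(v : Q), h v v.2⟩, Finset.mem_filter.2 ⟨Finset.mem_univ _, Subtype.ext
          (by simpa [pow_two] using hVsq v v.2)⟩⟩) ?_
      intro a b hab
      exact Subtype.ext (congrArg (fun w : {x // x ∈ Finset.univ.filter fun a : X => a ^ 2 = 1} =>
        ((w : X) : Q)) hab)
    omega
  set C := Subgroup.centralizer ({e} : Set Q) with hC
  have hVcomm : ∀ v ∈ V, v ∈ C := fun v hv => by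
    rw [hC, Subgroup.mem_centralizer_singleton_iff]
    have h1 := hVsq _ (mul_mem hv heV)
    have e1 : v⁻¹ = v := inv_eq_of_mul_eq_one_right (hVsq v hv)
    have e2 : e⁻¹ = e := inv_eq_of_mul_eq_one_right (hVsq e heV)
    calc v * e = (v * e)⁻¹ := (inv_eq_of_mul_eq_one_right h1).symm
      _ = e * v := by rw [mul_inv_rev, e1, e2]
  have hcard : Nat.card C ≤ 4 := by
    have h1 := (C ⊓ X).subgroupOf C |>.card_mul_index
    rw [Nat.card_congr (Subgroup.subgroupOfEquivOfLe inf_le_left).toEquiv] at h1
    have h2 : ((C ⊓ X).subgroupOf C).index ≤ 2 := by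
      show (C ⊓ X).relIndex C ≤ 2
      rw [Subgroup.inf_relIndex_left]
      haveI : X.Normal := Subgroup.normal_of_index_eq_two hX
      exact Nat.le_of_dvd (by norm_num) (hX ▸ Subgroup.relIndex_dvd_index_of_normal X C)
    have h3 := hfix e heX (hVsq e heV)
    rw [← hC] at h3
    have := Nat.mul_le_mul h3 h2
    omega
  have hVC : V = C := Subgroup.eq_of_le_of_card_ge hVcomm (by omega)
  rw [hVC]
  intro x hx
  rw [hC, Subgroup.mem_centralizer_singleton_iff]
  exact (Subgroup.mem_centralizer_iff.1 hx e (hVC ▸ heV)).symm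

/-- Four-subgroups of dihedral and quasi-dihedral groups are self-centralizing. -/
theorem dihedral_qd_four {Q : Type*} [Group Q] [Finite Q]
    (hq : (∃ m : ℕ, 2 ≤ m ∧ Nonempty (Q ≃* DihedralGroup m)) ∨ Cfsg.IsQuasiDihedral Q)
    {V : Subgroup Q} (hV : Nat.card V = 4) (hVsq : ∀ v ∈ V, v * v = 1) :
    Subgroup.centralizer (V : Set Q) ≤ V := by
  -- a generator of a cyclic subgroup of index two and the action of the other coset on it
  obtain ⟨n, x, c, hx, hidx, hn, hact, hc⟩ : ∃ (n : ℕ) (x : Q) (c : ℤ), orderOf x = n ∧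
      (Subgroup.zpowers x).index = 2 ∧ 0 < n ∧
      (∀ e : Q, e ∉ Subgroup.zpowers x → e * x * e⁻¹ = x ^ c) ∧
      (∀ j : ℤ, (n : ℤ) ∣ j * (c - 1) → (n : ℤ) ∣ 2 * j) := by
    rcases hq with ⟨m, hm, ⟨e⟩⟩ | ⟨k, hk, hcardQ, x, y, hx, hy, hrel⟩
    · haveI : NeZero m := ⟨by omega⟩
      have hox : orderOf (e.symm (DihedralGroup.r 1)) = m := by
        rw [MulEquiv.orderOf_eq, DihedralGroup.orderOf_r_one]
      refine ⟨m, e.symm (DihedralGroup.r 1), -1, hox, ?_, by omega, ?_, ?_⟩
      · have h1 := (Subgroup.zpowers (e.symm (DihedralGroup.r 1 : DihedralGroup m))).card_mul_index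
        rw [Nat.card_zpowers, hox, Nat.card_congr e.toEquiv, DihedralGroup.nat_card] at h1
        nlinarith
      · intro a ha
        obtain ⟨b, rfl⟩ := e.symm.surjective a
        cases b with
        | r i =>
          exfalso
          apply ha
          refine ⟨(i.val : ℤ), ?_⟩
          simp only [zpow_natCast]
          rw [← map_pow, DihedralGroup.r_one_pow, ZMod.natCast_zmod_val]
        | sr i =>
          rw [← map_inv, ← map_mul, ← map_mul, zpow_neg, zpow_one, ← map_inv]
          simp [DihedralGroup.inv_sr, DihedralGroup.inv_r]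
      · intro j hj
        have : j * (-1 - 1 : ℤ) = -(2 * j) := by ring
        rw [this, dvd_neg] at hj
        exact hj
    · refine ⟨2 ^ k, x, ((2 ^ (k - 1) - 1 : ℕ) : ℤ), hx, ?_, by positivity, ?_, ?_⟩
      · have h1 := (Subgroup.zpowers x).card_mul_index
        rw [Nat.card_zpowers, hx, hcardQ, pow_succ] at h1
        exact Nat.eq_of_mul_eq_mul_left (by positivity) h1
      · intro a ha
        have hidx : (Subgroup.zpowers x).index = 2 := by
          have h1 := (Subgroup.zpowers x).card_mul_index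
          rw [Nat.card_zpowers, hx, hcardQ, pow_succ] at h1
          exact Nat.eq_of_mul_eq_mul_left (by positivity) h1
        have hyX : y ∉ Subgroup.zpowers x := by
          intro hy'
          obtain ⟨i, rfl⟩ := hy'
          rw [mul_inv_eq_iff_eq_mul.2 ((Commute.refl x).zpow_left i).eq] at hrel
          have h2 : x ^ (1 : ℕ) = x ^ (2 ^ (k - 1) - 1) := by rw [pow_one]; exact hrel
          rw [pow_eq_pow_iff_modEq, hx] at h2
          obtain ⟨j, hj⟩ : ∃ j, k = j + 3 := ⟨k - 3, by omega⟩
          subst hj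
          rw [Nat.ModEq, show j + 3 - 1 = j + 2 by omega] at h2
          have h3 : 2 ^ (j + 3) = 2 * 2 ^ (j + 2) := by rw [pow_succ]; ring
          have h4 : 4 ≤ 2 ^ (j + 2) := by
            calc 4 = 2 ^ 2 := rfl
              _ ≤ _ := Nat.pow_le_pow_right (by norm_num) (by omega)
          rw [Nat.mod_eq_of_lt (by omega), Nat.mod_eq_of_lt (by omega)] at h2
          omega
        have hay : a * y⁻¹ ∈ Subgroup.zpowers x := by
          rw [Subgroup.mul_mem_iff_of_index_two hidx, inv_mem_iff]
          simp [ha, hyX]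
        obtain ⟨i, hi⟩ := hay
        simp only at hi
        have : a = x ^ i * y := by rw [hi]; group
        rw [this, show x ^ i * y * x * (x ^ i * y)⁻¹ = x ^ i * (y * x * y⁻¹) * (x ^ i)⁻¹ by group,
          hrel, zpow_natCast, (Commute.zpow_self x i |>.pow_right _).eq, mul_inv_cancel_right]
      · intro j hj
        obtain ⟨i, rfl⟩ : ∃ i, k = i + 3 := ⟨k - 3, by omega⟩
        have h4 : 2 ≤ 2 ^ (i + 2) := by
          calc 2 = 2 ^ 1 := rfl
            _ ≤ _ := Nat.pow_le_pow_right (by norm_num) (by omega)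
        rw [show i + 3 - 1 = i + 2 by omega,
          show ((2 ^ (i + 2) - 1 : ℕ) : ℤ) - 1 = 2 * (2 ^ (i + 1) - 1) by
            rw [Nat.cast_sub (by omega)]; push_cast; ring] at hj
        push_cast at hj ⊢
        have hcop : IsCoprime ((2 : ℤ) ^ (i + 3)) (2 ^ (i + 1) - 1) :=
          (show IsCoprime (2 : ℤ) (2 ^ (i + 1) - 1) from ⟨2 ^ i, -1, by ring⟩).pow_left
        refine hcop.dvd_of_dvd_mul_right ?_
        rw [show 2 * j * (2 ^ (i + 1) - 1) = j * (2 * (2 ^ (i + 1) - 1)) by ring]
        exact hj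
  haveI : IsCyclic (Subgroup.zpowers x) := inferInstance
  refine four_self_centralizing (X := Subgroup.zpowers x) inferInstance hidx (fun e he hee => ?_)
    hV hVsq
  classical
  haveI : Fintype (Subgroup.zpowers x) := Fintype.ofFinite _
  refine le_trans ?_ (IsCyclic.card_pow_eq_one_le (α := Subgroup.zpowers x) (n := 2) (by norm_num))
  rw [← Fintype.card_coe, ← Nat.card_eq_fintype_card]
  refine Nat.card_le_card_of_injective
    (fun v => ⟨⟨(v : Q), v.2.2⟩, Finset.mem_filter.2 ⟨Finset.mem_univ _, Subtype.ext ?_⟩⟩) ?_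
  · obtain ⟨j, hj⟩ := v.2.2
    have hcomm := Subgroup.mem_centralizer_singleton_iff.1 v.2.1
    show (v : Q) ^ 2 = 1
    rw [← hj] at hcomm ⊢
    have h1 : e * x ^ j * e⁻¹ = x ^ j := by rw [← hcomm, mul_inv_cancel_right]
    rw [← conj_zpow, hact e he, ← zpow_mul, zpow_eq_zpow_iff_modEq, hx] at h1
    rw [← zpow_natCast, ← zpow_mul, ← orderOf_dvd_iff_zpow_eq_one, hx]
    have h2 := h1.symm.dvd
    rw [show c * j - j = j * (c - 1) by ring] at h2
    simpa [mul_comm] using hc j h2
  · intro a b hab
    exact Subtype.ext (congrArg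
      (fun w : {v // v ∈ Finset.univ.filter fun a : Subgroup.zpowers x => a ^ 2 = 1} =>
        ((w : Subgroup.zpowers x) : Q)) hab)

end Cfsg.Agent.H50
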