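import Cfsg.Agent.H72.QdModel

/-! The Sylow `p`-subgroup of `Qd(p)`: its normalizer is maximal, and the translations are not
characteristic in it. -/

set_option autoImplicit false

namespace Cfsg.Agent.H50.QdSylow

open Matrix Cfsg.Agent.H95 Cfsg.Agent.H72.QdModel

variable {p : ℕ} [hp : Fact p.Prime] {X : Type*} [Group X] (e : ↥(Cfsg.qd p) ≃* X)

/-- The element with translation `(a, b)` and linear part `up x`. -/
def el (a b x : ZMod p) : X := tr e (pt a b) * li e (up (Multiplicative.ofAdd x))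

theorem li_up_add (x y : ZMod p) :
    li e (up (Multiplicative.ofAdd (x + y))) =
      li e (up (Multiplicative.ofAdd x)) * li e (up (Multiplicative.ofAdd y)) := by
  rw [ofAdd_add, map_mul, map_mul]

theorem el_mul (a b x a' b' x' : ZMod p) :
    el e a b x * el e a' b' x' = el e (a + a' + x * b') (b + b') (x + x') := by
  unfold el
  rw [mul_assoc, ← mul_assoc (li e _), li_tr, act_up, mul_assoc, ← li_up_add, ← mul_assoc,
    ← map_mul, pt_mul, show a + (a' + x * b') = a + a' + x * b' by ring]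

theorem el_zero : el e 0 0 0 = 1 := by
  have h : pt (p := p) 0 0 = 1 := by
    apply Multiplicative.toAdd.injective
    ext i; fin_cases i <;> simp [pt]
  simp [el, h]

/-- The Sylow subgroup. -/
def syl : Subgroup X where
  carrier := {y | ∃ a b x : ZMod p, y = el e a b x}
  one_mem' := ⟨0, 0, 0, (el_zero e).symm⟩
  mul_mem' := by
    rintro _ _ ⟨a, b, x, rfl⟩ ⟨a', b', x', rfl⟩
    exact ⟨_, _, _, el_mul e a b x a' b' x'⟩
  inv_mem' := by
    rintro _ ⟨a, b, x, rfl⟩
    refine ⟨-a + x * b, -b, -x, inv_eq_of_mul_eq_one_right ?_⟩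
    rw [el_mul, ← el_zero e]
    congr 1 <;> ring

theorem el_mem (a b x : ZMod p) : el e a b x ∈ syl e := ⟨a, b, x, rfl⟩

theorem el_injective {a b x a' b' x' : ZMod p} (h : el e a b x = el e a' b' x') :
    a = a' ∧ b = b' ∧ x = x' := by
  unfold el at h
  have h2 : li e (up (Multiplicative.ofAdd x) * (up (Multiplicative.ofAdd x'))⁻¹) =
      tr e ((pt a b)⁻¹ * pt a' b') := by
    rw [map_mul, map_inv, map_mul, map_inv, eq_inv_mul_iff_mul_eq, ← mul_assoc, h,
      mul_inv_cancel_right]
  have hA := li_eq_one_of_eq_tr e h2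
  have hv : tr e ((pt a b)⁻¹ * pt a' b') = 1 := by rw [← h2, hA, map_one]
  have hpt : pt a b = pt a' b' :=
    inv_mul_eq_one.mp (tr_injective e (hv.trans (map_one _).symm))
  have hup : up (Multiplicative.ofAdd x) = up (Multiplicative.ofAdd x') := mul_inv_eq_one.mp hA
  refine ⟨?_, ?_, ?_⟩
  · have := congrFun (congrArg Multiplicative.toAdd hpt) 0; simpa [pt] using this
  · have := congrFun (congrArg Multiplicative.toAdd hpt) 1; simpa [pt] using this
  · have := congrArg (fun A : SL2 p => (A : Matrix (Fin 2) (Fin 2) (ZMod p)) 0 1) hup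
    simpa using this

theorem coe_low (x : ZMod p) :
    (low x : Matrix (Fin 2) (Fin 2) (ZMod p)) = !![1, 0; x, 1] := rfl

theorem range_le_syl : (tr e).range ≤ syl e := by
  rintro _ ⟨v, rfl⟩
  exact ⟨v.toAdd 0, v.toAdd 1, 0, by simp [el, ← eq_pt v]⟩

theorem li_up_mem (x : ZMod p) : li e (up (Multiplicative.ofAdd x)) ∈ syl e := by
  refine ⟨0, 0, x, ?_⟩
  have h : pt (p := p) 0 0 = 1 := by
    apply Multiplicative.toAdd.injective
    ext i; fin_cases i <;> simp [pt]
  simp [el, h]

theorem isPGroup_syl : IsPGroup p (syl e) := by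
  have hf : Function.Bijective (fun t : ZMod p × ZMod p × ZMod p =>
      (⟨el e t.1 t.2.1 t.2.2, el_mem e _ _ _⟩ : syl e)) := by
    refine ⟨fun s t h => ?_, ?_⟩
    · obtain ⟨h1, h2, h3⟩ := el_injective e (congrArg Subtype.val h)
      exact Prod.ext h1 (Prod.ext h2 h3)
    · rintro ⟨_, a, b, x, rfl⟩
      exact ⟨(a, b, x), rfl⟩
  refine IsPGroup.of_card (n := 3) ?_
  rw [← Nat.card_eq_of_bijective _ hf]
  simp only [Nat.card_prod, Nat.card_zmod]
  ring

/-- A subgroup containing `syl` and an element outside its normalizer is everything. -/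
theorem eq_top_of_syl_le {K : Subgroup X} (hK : syl e ≤ K) {A : SL2 p} (hA : li e A ∈ K)
    (hc : (A : Matrix (Fin 2) (Fin 2) (ZMod p)) 1 0 ≠ 0) : K = ⊤ := by
  set L := K.comap (li e) with hL
  have hup : ∀ x, up (Multiplicative.ofAdd x) ∈ L := fun x => hK (li_up_mem e x)
  set M := (A : Matrix (Fin 2) (Fin 2) (ZMod p)) with hM
  set c := M 1 0 with hcd
  set W : SL2 p := up (Multiplicative.ofAdd (-(M 0 0) / c)) * A *
    up (Multiplicative.ofAdd (-(M 1 1) / c)) with hW
  have hWL : W ∈ L := mul_mem (mul_mem (hup _) hA) (hup _)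
  have hdet : M 0 0 * M 1 1 - M 0 1 * M 1 0 = 1 := by rw [← Matrix.det_fin_two]; exact A.2
  have hWval : (W : Matrix (Fin 2) (Fin 2) (ZMod p)) = !![0, -c⁻¹; c, 0] := by
    rw [hW, Matrix.SpecialLinearGroup.coe_mul, Matrix.SpecialLinearGroup.coe_mul, coe_up, coe_up,
      ← hM, Matrix.eta_fin_two M, Matrix.mul_fin_two, Matrix.mul_fin_two]
    simp only [toAdd_ofAdd, ← hcd]
    rw [← hcd] at hdet
    ext i j
    fin_cases i <;> fin_cases j <;> simp <;> field_simp <;>
      first | ring1 | linear_combination hdet | linear_combination -hdet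
  clear_value W
  have hlow : ∀ y, low y ∈ L := by
    intro y
    have : low y = W * up (Multiplicative.ofAdd (-y / (c * c))) * W⁻¹ := by
      rw [eq_mul_inv_iff_mul_eq]
      apply Subtype.ext
      rw [Matrix.SpecialLinearGroup.coe_mul, Matrix.SpecialLinearGroup.coe_mul, coe_low, coe_up,
        hWval, Matrix.mul_fin_two, Matrix.mul_fin_two]
      simp only [toAdd_ofAdd]
      ext i j
      fin_cases i <;> fin_cases j <;> simp <;> field_simp
    rw [this]
    exact mul_mem (mul_mem hWL (hup _)) (inv_mem hWL)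
  have key : ∀ B : SL2 p, (B : Matrix (Fin 2) (Fin 2) (ZMod p)) 1 0 ≠ 0 → B ∈ L := by
    intro B hB
    set N := (B : Matrix (Fin 2) (Fin 2) (ZMod p)) with hN
    have hd : N 0 0 * N 1 1 - N 0 1 * N 1 0 = 1 := by rw [← Matrix.det_fin_two]; exact B.2
    have : B = up (Multiplicative.ofAdd ((N 0 0 - 1) / N 1 0)) * low (N 1 0) *
        up (Multiplicative.ofAdd ((N 1 1 - 1) / N 1 0)) := by
      apply Subtype.ext
      rw [Matrix.SpecialLinearGroup.coe_mul, Matrix.SpecialLinearGroup.coe_mul, coe_low, coe_up,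
        coe_up, ← hN, Matrix.eta_fin_two N, Matrix.mul_fin_two, Matrix.mul_fin_two]
      simp only [toAdd_ofAdd]
      ext i j
      fin_cases i <;> fin_cases j <;> simp <;> field_simp <;>
        first | ring1 | linear_combination hd | linear_combination -hd
    rw [this]
    exact mul_mem (mul_mem (hup _) (hlow _)) (hup _)
  have hall : ∀ B : SL2 p, li e B ∈ K := by
    intro B
    by_cases hB : (B : Matrix (Fin 2) (Fin 2) (ZMod p)) 1 0 = 0
    · have hd : (B : Matrix (Fin 2) (Fin 2) (ZMod p)) 1 1 ≠ 0 := by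
        intro h
        have := B.2
        rw [Matrix.det_fin_two, hB, h] at this
        simp at this
      have h1 : B * low 1 ∈ L := key _ (by
        rw [Matrix.SpecialLinearGroup.coe_mul, coe_low]
        simpa [Matrix.mul_apply, Fin.sum_univ_two, hB] using hd)
      have := mul_mem h1 (inv_mem (hlow 1))
      rwa [mul_inv_cancel_right] at this
    · exact key B hB
  rw [eq_top_iff]
  intro y _
  obtain ⟨B, v, rfl⟩ := exists_eq_mul e y
  exact mul_mem (hK (range_le_syl e ⟨v, rfl⟩)) (hall B)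

/-- The translations are not characteristic in `syl`. -/
theorem exists_aut_moving : ∃ (f : syl e ≃* syl e) (y : syl e),
    (y : X) ∈ (tr e).range ∧ ((f y : syl e) : X) ∉ (tr e).range := by
  classical
  let g : ZMod p × ZMod p × ZMod p → syl e := fun t => ⟨el e t.1 t.2.1 t.2.2, el_mem e _ _ _⟩
  have hg : Function.Bijective g := by
    refine ⟨fun s t h => ?_, ?_⟩
    · obtain ⟨h1, h2, h3⟩ := el_injective e (congrArg Subtype.val h)
      exact Prod.ext h1 (Prod.ext h2 h3)
    · rintro ⟨_, a, b, x, rfl⟩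
      exact ⟨(a, b, x), rfl⟩
  let eg := Equiv.ofBijective g hg
  let σ : ZMod p × ZMod p × ZMod p ≃ ZMod p × ZMod p × ZMod p :=
    { toFun := fun t => (-t.1 + t.2.1 * t.2.2, t.2.2, t.2.1)
      invFun := fun t => (-t.1 + t.2.1 * t.2.2, t.2.2, t.2.1)
      left_inv := fun t => by ext <;> simp <;> ring
      right_inv := fun t => by ext <;> simp <;> ring }
  let f0 : syl e ≃ syl e := eg.symm.trans (σ.trans eg)
  have hf0 : ∀ a b x, f0 (g (a, b, x)) = g (-a + b * x, x, b) := by
    intro a b x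
    show eg (σ (eg.symm (eg (a, b, x)))) = _
    rw [Equiv.symm_apply_apply]
    rfl
  have hmul : ∀ y z : syl e, f0 (y * z) = f0 y * f0 z := by
    intro y z
    obtain ⟨⟨a, b, x⟩, rfl⟩ := hg.2 y
    obtain ⟨⟨a', b', x'⟩, rfl⟩ := hg.2 z
    have h : g (a, b, x) * g (a', b', x') = g (a + a' + x * b', b + b', x + x') :=
      Subtype.ext (el_mul e a b x a' b' x')
    rw [h, hf0, hf0, hf0]
    apply Subtype.ext
    show el e _ _ _ = el e _ _ _ * el e _ _ _
    rw [el_mul]
    congr 1
    ring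
  refine ⟨MulEquiv.mk' f0 hmul, g (0, 1, 0), ⟨pt 0 1, ?_⟩, ?_⟩
  · show tr e (pt 0 1) = el e 0 1 0
    simp [el]
  · show ((f0 (g (0, 1, 0)) : syl e) : X) ∉ _
    rw [hf0]
    rintro ⟨v, hv⟩
    have h2 : tr e v = el e (-0 + 1 * 0) 0 1 := hv
    have h3 : li e (up (Multiplicative.ofAdd (1 : ZMod p))) =
        tr e ((pt (-0 + 1 * 0) 0)⁻¹ * v) := by
      rw [map_mul, map_inv, h2, el]; group
    have h4 := congrArg (fun A : SL2 p => (A : Matrix (Fin 2) (Fin 2) (ZMod p)) 0 1)
      (li_eq_one_of_eq_tr e h3)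
    simp at h4

theorem syl_not_le_range : ¬ syl e ≤ (tr e).range := fun h => by
  obtain ⟨f, y, -, hy⟩ := exists_aut_moving e
  exact hy (h (f y).2)

/-- The normalizer of `syl` has linear parts with zero lower-left entry. -/
theorem lowerLeft_eq_zero [Finite X] {A : SL2 p} {v : Plane p}
    (h : tr e v * li e A ∈ Subgroup.normalizer (syl e : Set X)) :
    (A : Matrix (Fin 2) (Fin 2) (ZMod p)) 1 0 = 0 := by
  by_contra hc
  have hle : syl e ≤ Subgroup.normalizer (syl e : Set X) := Subgroup.le_normalizer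
  have hA : li e A ∈ Subgroup.normalizer (syl e : Set X) := by
    have := mul_mem (inv_mem (hle (range_le_syl e ⟨v, rfl⟩))) h
    rwa [inv_mul_cancel_left] at this
  haveI : (syl e).Normal := Subgroup.normalizer_eq_top_iff.mp (eq_top_of_syl_le e hle hA hc)
  exact syl_not_le_range e ((H19.le_pCore inferInstance (isPGroup_syl e)).trans (pCore_le e))

theorem li_mem_normalizer [Finite X] {A : SL2 p}
    (hc : (A : Matrix (Fin 2) (Fin 2) (ZMod p)) 1 0 = 0) :
    li e A ∈ Subgroup.normalizer (syl e : Set X) := by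
  set M := (A : Matrix (Fin 2) (Fin 2) (ZMod p)) with hM
  have hdet : M 0 0 * M 1 1 = 1 := by
    have h1 := A.2
    rw [Matrix.det_fin_two, ← hM] at h1
    rw [← h1, hc]; ring
  have hle : ∀ y ∈ syl e, li e A * y * (li e A)⁻¹ ∈ syl e := by
    rintro _ ⟨a, b, x, rfl⟩
    have h1 : A * up (Multiplicative.ofAdd x) = up (Multiplicative.ofAdd (M 0 0 * M 0 0 * x)) * A := by
      apply Subtype.ext
      rw [Matrix.SpecialLinearGroup.coe_mul, Matrix.SpecialLinearGroup.coe_mul, coe_up, coe_up,
        ← hM, Matrix.eta_fin_two M, Matrix.mul_fin_two, Matrix.mul_fin_two]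
      simp only [toAdd_ofAdd, hc]
      ext i j
      fin_cases i <;> fin_cases j <;> simp
      linear_combination -(M 0 0 * x) * hdet
    have h2 : li e A * el e a b x * (li e A)⁻¹ =
        tr e (act A (pt a b)) * li e (up (Multiplicative.ofAdd (M 0 0 * M 0 0 * x))) := by
      rw [el, ← mul_assoc, li_tr, mul_assoc (tr e _), ← map_mul, h1, map_mul, ← mul_assoc,
        mul_inv_cancel_right]
    rw [h2]
    exact mul_mem (range_le_syl e ⟨_, rfl⟩) (li_up_mem e _)
  rw [Subgroup.mem_normalizer_iff_map_conj_eq]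
  refine Subgroup.eq_of_le_of_card_ge ?_ ?_
  · rintro _ ⟨y, hy, rfl⟩
    exact hle y hy
  · exact (Subgroup.card_map_of_injective (MulEquiv.injective _)).ge

theorem syl_maximal [Finite X] {P : Subgroup X} (hP : IsPGroup p P) (h : syl e ≤ P) :
    P = syl e := by
  by_contra hne
  have hlt : syl e < P := lt_of_le_of_ne h (Ne.symm hne)
  haveI : Group.IsNilpotent P := hP.isNilpotent
  have hnc := Group.normalizerCondition_of_isNilpotent (G := P) ((syl e).subgroupOf P)
    (lt_top_iff_ne_top.mpr fun ht => hlt.not_ge (Subgroup.subgroupOf_eq_top.mp ht))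
  obtain ⟨y, hyN, hy⟩ := SetLike.exists_of_lt hnc
  have hyN' : (y : X) ∈ Subgroup.normalizer (syl e : Set X) := by
    rw [Subgroup.mem_normalizer_iff'] at hyN ⊢
    intro z
    constructor
    · intro hz
      have hzP : z ∈ P := by
        have := mul_mem (hlt.le hz) (inv_mem y.2)
        rwa [mul_inv_cancel_right] at this
      exact (hyN ⟨z, hzP⟩).mp hz
    · intro hz
      have hzP : z ∈ P := by
        have := mul_mem (inv_mem y.2) (hlt.le hz)
        rwa [inv_mul_cancel_left] at this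
      exact (hyN ⟨z, hzP⟩).mpr hz
  obtain ⟨A, v, hyv⟩ := exists_eq_mul e (y : X)
  rw [hyv] at hyN'
  have hc := lowerLeft_eq_zero e hyN'
  set M := (A : Matrix (Fin 2) (Fin 2) (ZMod p)) with hM
  have hdet : M 0 0 * M 1 1 = 1 := by
    have h1 := A.2
    rw [Matrix.det_fin_two, ← hM] at h1
    rw [← h1, hc]; ring
  obtain ⟨k, hk⟩ := hP y
  have hk' : (tr e v * li e A) ^ p ^ k = 1 := by
    rw [← hyv]; exact congrArg Subtype.val hk
  have hpow : ∀ n : ℕ, ∃ w, (tr e v * li e A) ^ n = tr e w * li e (A ^ n) := by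
    intro n
    induction n with
    | zero => exact ⟨1, by simp⟩
    | succ n ih =>
      obtain ⟨w, hw⟩ := ih
      refine ⟨w * act (A ^ n) v, ?_⟩
      rw [pow_succ, hw, pow_succ, map_mul (li e), map_mul (tr e), mul_assoc (tr e w),
        ← mul_assoc (li e (A ^ n)), li_tr]
      group
  obtain ⟨w, hw⟩ := hpow (p ^ k)
  rw [hk'] at hw
  have hA1 : A ^ (p ^ k) = 1 := li_eq_one_of_eq_tr e (v := w⁻¹) (by
    rw [map_inv]; exact eq_inv_of_mul_eq_one_right hw.symm)
  have hentry : ∀ n : ℕ, ((A ^ n : SL2 p) : Matrix (Fin 2) (Fin 2) (ZMod p)) 0 0 = M 0 0 ^ n ∧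
      ((A ^ n : SL2 p) : Matrix (Fin 2) (Fin 2) (ZMod p)) 1 0 = 0 := by
    intro n
    induction n with
    | zero => simp
    | succ n ih =>
      rw [pow_succ, Matrix.SpecialLinearGroup.coe_mul]
      constructor <;>
        simp only [Matrix.mul_apply, Fin.sum_univ_two, ih.1, ih.2, ← hM, hc, pow_succ] <;> ring
  have ha : M 0 0 = 1 := by
    have h1 := (hentry (p ^ k)).1
    rw [hA1] at h1
    simp [ZMod.pow_card_pow] at h1
    exact h1.symm
  have hd : M 1 1 = 1 := by rwa [ha, one_mul] at hdet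
  have hup : A = up (Multiplicative.ofAdd (M 0 1)) := by
    apply Subtype.ext
    ext i j
    fin_cases i <;> fin_cases j <;> simp [← hM, ha, hd, hc]
  exact hy ⟨v.toAdd 0, v.toAdd 1, M 0 1, by rw [el, ← eq_pt, ← hup]; exact hyv⟩

end Cfsg.Agent.H50.QdSylow
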