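import Mathlib
import Cfsg.Prelude.Def_Transfer
import Cfsg.Agent.H50.Closure

set_option linter.style.haveILetI false

/-! TI 2-subgroups commuting with no other conjugate. -/

namespace Cfsg.Agent.H50

/-- A TI elementary abelian 2-subgroup that commutes with no other conjugate is weakly closed in
the centralizers of its involutions. -/
theorem ti_weaklyClosed {G : Type*} [Group G] [Finite G] {A : Subgroup G}
    (hA : Cfsg.IsElementaryAbelian 2 A)
    (hTI : ∀ g : G, A.map (MulAut.conj g).toMonoidHom ⊓ A = ⊥ ∨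
      A.map (MulAut.conj g).toMonoidHom = A)
    (hb : ∀ g : G, (∀ a ∈ A, ∀ b ∈ A.map (MulAut.conj g).toMonoidHom, a * b = b * a) →
      A.map (MulAut.conj g).toMonoidHom = A)
    {a : G} (ha : a ∈ A) (ha1 : a ≠ 1) {g : G}
    (hg : A.map (MulAut.conj g).toMonoidHom ≤ Subgroup.centralizer ({a} : Set G)) :
    A.map (MulAut.conj g).toMonoidHom = A := by
  by_contra hne
  set B := A.map (MulAut.conj g).toMonoidHom with hBdef
  have hBA : B ⊓ A = ⊥ := (hTI g).resolve_right hne
  have hp : IsPGroup 2 A := fun x => ⟨1, Subtype.ext (by simpa using hA.2 x.1 x.2)⟩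
  have hpB : IsPGroup 2 B := hp.map _
  have hBN : B ≤ Subgroup.normalizer (A : Set G) := by
    intro b hb'
    have hba := Subgroup.mem_centralizer_singleton_iff.1 (hg hb')
    rcases hTI b with h | h
    · exfalso
      have hm : a ∈ A.map (MulAut.conj b).toMonoidHom ⊓ A :=
        ⟨⟨a, ha, by simp [hba]⟩, ha⟩
      rw [h] at hm
      exact ha1 (Subgroup.mem_bot.1 hm)
    · exact map_conj_eq_iff.1 h
  -- elements of `A` normalizing `B` centralize it
  have hfix : ∀ c ∈ A, c ∈ Subgroup.normalizer (B : Set G) → ∀ b ∈ B, Commute c b := by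
    intro c hc hcN b hb'
    have hm : c * b * c⁻¹ * b⁻¹ ∈ B ⊓ A := by
      refine Subgroup.mem_inf.2
        ⟨mul_mem ((Subgroup.mem_normalizer_iff.1 hcN b).1 hb') (inv_mem hb'), ?_⟩
      rw [show c * b * c⁻¹ * b⁻¹ = c * (b * c⁻¹ * b⁻¹) by group]
      exact A.mul_mem hc ((Subgroup.mem_normalizer_iff.1 (hBN hb') c⁻¹).1 (A.inv_mem hc))
    rw [hBA, Subgroup.mem_bot, mul_inv_eq_one] at hm
    exact mul_inv_eq_iff_eq_mul.1 hm
  let X : Subgroup G := A ⊔ B
  have hX : IsPGroup 2 X := IsPGroup.to_sup_of_normal_left' hp hpB hBN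
  let C : Subgroup G := A ⊓ Subgroup.centralizer (B : Set G)
  let D : Subgroup G := C ⊔ B
  have hDX : D ≤ X := sup_le_sup_right inf_le_left _
  have hBC : B ≤ Subgroup.normalizer (C : Set G) :=
    le_trans (fun b hb' => Subgroup.mem_centralizer_iff.2 fun c hc =>
      (Subgroup.mem_centralizer_iff.1 hc.2 b hb').symm) (Subgroup.centralizer_le_normalizer _)
  have hBcomm : ∀ b ∈ B, ∀ b' ∈ B, Commute b b' := by
    rintro _ ⟨u, hu, rfl⟩ _ ⟨v, hv, rfl⟩
    exact Commute.map (congrArg Subtype.val (hA.1.is_comm.comm (⟨u, hu⟩ : A) ⟨v, hv⟩)) _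
  have hDcent : D ≤ Subgroup.centralizer (B : Set G) :=
    sup_le inf_le_right fun b hb' => Subgroup.mem_centralizer_iff.2 fun b' hb'' => hBcomm b' hb'' b hb'
  by_cases hAD : A ≤ D
  · exact hne (hb g fun x hx y hy => (Subgroup.mem_centralizer_iff.1 (hDcent (hAD hx)) y hy).symm)
  have hlt : D.subgroupOf X < ⊤ := by
    rw [lt_top_iff_ne_top, Ne, Subgroup.subgroupOf_eq_top]
    exact fun h => hAD (le_sup_left.trans h)
  haveI : Group.IsNilpotent X := hX.isNilpotent
  obtain ⟨⟨x, hxX⟩, hxN, hxD⟩ := SetLike.exists_of_lt (Group.normalizerCondition_of_isNilpotent _ hlt)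
  have hxX' : x ∈ ((A ⊔ B : Subgroup G) : Set G) := hxX
  rw [Subgroup.coe_mul_of_right_le_normalizer_left _ _ hBN] at hxX'
  obtain ⟨c, hc, b, hb', rfl⟩ := hxX'
  -- the conjugate of `B` by `c` lies in `D`, hence commutes with `B`
  have hconjB : ∀ y ∈ B, c * y * c⁻¹ ∈ D := by
    intro y hy
    have h1 : b⁻¹ * y * b ∈ D :=
      Subgroup.mem_sup_right (mul_mem (mul_mem (inv_mem hb') hy) hb')
    have h2 : (⟨b⁻¹ * y * b, hDX h1⟩ : X) ∈ D.subgroupOf X := h1
    have h3 := (Subgroup.mem_normalizer_iff.1 hxN _).1 h2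
    rw [Subgroup.mem_subgroupOf] at h3
    simpa [mul_assoc] using h3
  have hmap : B.map (MulAut.conj c).toMonoidHom = B := by
    have h1 := hb (g⁻¹ * c * g) (by
      intro u hu v hv
      rw [mem_map_conj] at hv
      have hy : g * u * g⁻¹ ∈ B := ⟨u, hu, by simp⟩
      have hy' : g * v * g⁻¹ ∈ B.map (MulAut.conj c).toMonoidHom :=
        ⟨g * ((g⁻¹ * c * g)⁻¹ * v * (g⁻¹ * c * g)) * g⁻¹, ⟨_, hv, by simp⟩, by simp [mul_assoc]⟩
      obtain ⟨w, hw, hwe⟩ := hy'
      have hD : g * v * g⁻¹ ∈ D := by rw [← hwe]; simpa using hconjB w hw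
      have := Subgroup.mem_centralizer_iff.1 (hDcent hD) _ hy
      exact ((Commute.conj_iff g).1 (this : Commute _ _)).eq)
    rw [hBdef, map_conj_map]
    calc A.map (MulAut.conj (c * g)).toMonoidHom
        = (A.map (MulAut.conj (g⁻¹ * c * g)).toMonoidHom).map (MulAut.conj g).toMonoidHom := by
          rw [map_conj_map]; congr 3; group
      _ = A.map (MulAut.conj g).toMonoidHom := by rw [h1]
  apply hxD
  rw [Subgroup.mem_subgroupOf]
  refine mul_mem (Subgroup.mem_sup_left ⟨hc, Subgroup.mem_centralizer_iff.2 fun y hy => ?_⟩)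
    (Subgroup.mem_sup_right hb')
  exact (hfix c hc (map_conj_eq_iff.1 hmap) y hy).eq.symm

end Cfsg.Agent.H50
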